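import Mathlib
import Cfsg.Prelude.Def_JordanBlocks

/-! Basic calculus for the unipotent matrix of a given Jordan type: basis vectors with natural
number index, the nilpotent part, its powers, and its inverse. -/

set_option autoImplicit false

namespace Cfsg.Agent.Lib.JordanForm

open Matrix Finset Module

variable (F : Type*) [Field F] {t : ℕ} (d : Fin t → ℕ)

/-- The index type of the Jordan type matrix. -/
abbrev Ix : Type := (k : Fin t) × Fin (d k)

/-- The unipotent matrix. -/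
abbrev JJ : Matrix (Ix d) (Ix d) F := Cfsg.jordanTypeMatrix d F

/-- The nilpotent part. -/
noncomputable abbrev NN : Matrix (Ix d) (Ix d) F := JJ F d - 1

/-- Basis vector indexed by a natural number; zero out of range. -/
def ee (k : Fin t) (s : ℕ) : Ix d → F := fun a => if a.1 = k ∧ (a.2 : ℕ) = s then 1 else 0

variable {d}

theorem ee_of_le {k : Fin t} {s : ℕ} (h : d k ≤ s) : ee F d k s = 0 := by
  funext a
  simp only [ee, Pi.zero_apply]
  rw [if_neg]
  rintro ⟨rfl, h2⟩
  have := a.2.2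
  omega

theorem ee_single (a : Ix d) : ee F d a.1 a.2 = Pi.single a 1 := by
  funext b
  simp only [ee, Pi.single_apply]
  obtain ⟨k, s⟩ := a
  obtain ⟨l, r⟩ := b
  by_cases h : l = k
  · subst h
    by_cases h2 : r = s
    · subst h2; simp
    · have h3 : (r : ℕ) ≠ s := fun h => h2 (Fin.ext h)
      simp [h2, h3]
  · simp [h]

theorem ee_of_lt {k : Fin t} {s : ℕ} (h : s < d k) : ee F d k s = Pi.single ⟨k, ⟨s, h⟩⟩ 1 :=
  ee_single F ⟨k, ⟨s, h⟩⟩

theorem JJ_apply (a b : Ix d) : JJ F d a b =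
    if a.1 = b.1 ∧ ((a.2 : ℕ) = b.2 ∨ (a.2 : ℕ) = (b.2 : ℕ) + 1) then 1 else 0 := by
  classical
  obtain ⟨k, s⟩ := a
  obtain ⟨l, r⟩ := b
  by_cases h : k = l
  · subst h
    simp only [JJ, Cfsg.jordanTypeMatrix, Matrix.blockDiagonal'_apply_eq, Cfsg.jordanBlock,
      Matrix.of_apply, true_and]
    by_cases h1 : (s : ℕ) = r
    · simp [h1]
    · simp only [h1, if_false, false_or]
  · have : jordanTypeMatrix d F ⟨k, s⟩ ⟨l, r⟩ = 0 := by
      simp only [Cfsg.jordanTypeMatrix]
      exact Matrix.blockDiagonal'_apply_ne _ _ _ h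
    simp [this, h]

theorem NN_apply (a b : Ix d) : NN F d a b =
    if a.1 = b.1 ∧ ((a.2 : ℕ) = (b.2 : ℕ) + 1) then 1 else 0 := by
  classical
  rw [NN, Matrix.sub_apply, JJ_apply, Matrix.one_apply]
  obtain ⟨k, s⟩ := a
  obtain ⟨l, r⟩ := b
  by_cases h : k = l
  · subst h
    by_cases h1 : s = r
    · subst h1; simp
    · have h2 : (s : ℕ) ≠ r := fun h => h1 (Fin.ext h)
      simp [h1, h2]
  · simp [h]

theorem NN_mulVec_ee (k : Fin t) (s : ℕ) : NN F d *ᵥ ee F d k s = ee F d k (s + 1) := by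
  classical
  by_cases h : s < d k
  · rw [ee_of_lt F h]
    funext a
    rw [Matrix.mulVec_single_one]
    simp only [Matrix.col_apply, NN_apply, ee]
  · rw [ee_of_le F (not_lt.1 h), ee_of_le F (by omega : d k ≤ s + 1), Matrix.mulVec_zero]

theorem NN_pow_mulVec_ee (j : ℕ) (k : Fin t) (s : ℕ) : NN F d ^ j *ᵥ ee F d k s = ee F d k (s + j) := by
  induction j generalizing s with
  | zero => simp
  | succ j ih =>
    rw [pow_succ, ← Matrix.mulVec_mulVec, NN_mulVec_ee, ih]
    congr 1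
    omega

theorem JJ_mulVec_ee (k : Fin t) (s : ℕ) : JJ F d *ᵥ ee F d k s = ee F d k s + ee F d k (s + 1) := by
  have : JJ F d = NN F d + 1 := by simp [NN]
  rw [this, Matrix.add_mulVec, NN_mulVec_ee, Matrix.one_mulVec, add_comm]

theorem NN_mulVec_zero (x : Ix d → F) (a : Ix d) (h : (a.2 : ℕ) = 0) : (NN F d *ᵥ x) a = 0 := by
  classical
  rw [Matrix.mulVec, dotProduct]
  apply Finset.sum_eq_zero
  intro b _
  rw [NN_apply, if_neg, zero_mul]
  rintro ⟨-, h2⟩
  omega

theorem NN_mulVec_succ (x : Ix d → F) (k : Fin t) (s : ℕ) (h : s + 1 < d k) :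
    (NN F d *ᵥ x) ⟨k, ⟨s + 1, h⟩⟩ = x ⟨k, ⟨s, by omega⟩⟩ := by
  classical
  rw [Matrix.mulVec, dotProduct, Finset.sum_eq_single (⟨k, ⟨s, by omega⟩⟩ : Ix d)]
  · rw [NN_apply, if_pos (by simp), one_mul]
  · intro b _ hb
    rw [NN_apply, if_neg, zero_mul]
    rintro ⟨h1, h2⟩
    obtain ⟨l, r⟩ := b
    have h1' : k = l := h1
    subst h1'
    have h2' : s + 1 = (r : ℕ) + 1 := h2
    apply hb
    have : r = ⟨s, by omega⟩ := Fin.ext (by simp; omega)
    rw [this]
  · simp

/-- Low coordinates of a vector in the image of a power of `NN` vanish. -/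
theorem NN_pow_mulVec_low (j : ℕ) (w : Ix d → F) (a : Ix d) (h : (a.2 : ℕ) < j) :
    (NN F d ^ j *ᵥ w) a = 0 := by
  induction j generalizing a with
  | zero => omega
  | succ j ih =>
    rw [pow_succ', ← Matrix.mulVec_mulVec]
    obtain ⟨k, ⟨s, hs⟩⟩ := a
    cases s with
    | zero => exact NN_mulVec_zero F _ _ rfl
    | succ s =>
      rw [NN_mulVec_succ F _ k s hs]
      exact ih _ (by simp at h ⊢; omega)

theorem NN_isNilpotent : IsNilpotent (NN F d) := by
  classical
  refine ⟨univ.sup d, ?_⟩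
  apply Matrix.toLin'.injective
  ext x a
  simp only [LinearMap.coe_comp, Function.comp_apply, LinearMap.coe_single, Matrix.toLin'_apply, map_zero,
    LinearMap.zero_apply, Pi.zero_apply]
  apply NN_pow_mulVec_low
  have h1 : d a.1 ≤ univ.sup d := Finset.le_sup (Finset.mem_univ a.1)
  have := a.2.2
  omega

theorem JJ_isUnit : IsUnit (JJ F d) := by
  have h := (NN_isNilpotent F (d := d)).isUnit_one_add
  have h2 : (1 : Matrix (Ix d) (Ix d) F) + NN F d = JJ F d := by simp [NN]
  rwa [h2] at h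

theorem exists_JJ_inv : ∃ Ji : Matrix (Ix d) (Ix d) F, JJ F d * Ji = 1 ∧ Ji * JJ F d = 1 := by
  obtain ⟨u, hu⟩ := JJ_isUnit F (d := d)
  refine ⟨(↑u⁻¹ : Matrix (Ix d) (Ix d) F), ?_, ?_⟩
  · rw [← hu]; exact u.mul_inv
  · rw [← hu]; exact u.inv_mul

/-- All the (injective) values on basis vectors determine a linear map. -/
theorem linearMap_ext_ee {W : Type*} [AddCommGroup W] [Module F W] (f g : (Ix d → F) →ₗ[F] W)
    (h : ∀ (k : Fin t) (s : ℕ), f (ee F d k s) = g (ee F d k s)) : f = g := by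
  classical
  apply LinearMap.pi_ext'
  intro a
  apply LinearMap.ext_ring
  simp only [LinearMap.coe_comp, Function.comp_apply, LinearMap.coe_single]
  rw [← ee_single]
  exact h _ _

end Cfsg.Agent.Lib.JordanForm
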