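import Mathlib
import Cfsg.Prelude.Def_JordanBlocks
import Cfsg.Agent.Lib.RegUnip.Cyclic

/-! Invariant bilinear forms for a single Jordan block. -/

set_option autoImplicit false

namespace Cfsg.Agent.Lib.JordanForm

open Matrix Finset Module

variable {F : Type*} [Field F]

/-- The shape of a non-degenerate invariant form on a single Jordan block, in natural number
coordinates. -/
structure JF (n : ℕ) (g : ℕ → ℕ → F) : Prop where
  out_l : ∀ s r, n ≤ s → g s r = 0
  out_r : ∀ s r, n ≤ r → g s r = 0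
  rel : ∀ s r, g (s + 1) r + g s (r + 1) + g (s + 1) (r + 1) = 0
  nd_r : ∀ y : ℕ → F, (∀ s < n, ∑ r ∈ range n, g s r * y r = 0) → ∀ r < n, y r = 0

theorem JF.neg_flip {n : ℕ} {g : ℕ → ℕ → F} (h : JF n g) {ε : F} (hε : ε ≠ 0)
    (hl : ∀ y : ℕ → F, (∀ r < n, ∑ s ∈ range n, g s r * y s = 0) → ∀ s < n, y s = 0) :
    JF n (fun s r => ε * g r s) where
  out_l s r hs := by simp [h.out_r r s hs]
  out_r s r hr := by simp [h.out_l r s hr]
  rel s r := by
    have := h.rel r s
    linear_combination ε * this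
  nd_r y hy := by
    apply hl
    intro s hs
    have := hy s hs
    simp only [mul_assoc, ← Finset.mul_sum] at this
    exact (mul_eq_zero.1 this).resolve_left hε

variable (F)

/-- The single block. -/
abbrev JB (n : ℕ) : Matrix (Fin n) (Fin n) F := Cfsg.jordanBlock n F

/-- Its nilpotent part. -/
noncomputable abbrev NB (n : ℕ) : Matrix (Fin n) (Fin n) F := JB F n - 1

/-- Basis vectors with a natural number index. -/
def eh (n : ℕ) (s : ℕ) : Fin n → F := fun a => if (a : ℕ) = s then 1 else 0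

variable {n : ℕ}

theorem eh_of_le {s : ℕ} (h : n ≤ s) : eh F n s = 0 := by
  funext a
  simp only [eh, Pi.zero_apply]
  rw [if_neg]
  have := a.2
  omega

theorem eh_single (a : Fin n) : eh F n a = Pi.single a 1 := by
  funext b
  simp only [eh, Pi.single_apply, Fin.ext_iff]

theorem eh_of_lt {s : ℕ} (h : s < n) : eh F n s = Pi.single ⟨s, h⟩ 1 := eh_single F ⟨s, h⟩

theorem NB_apply (a b : Fin n) : NB F n a b = if (a : ℕ) = (b : ℕ) + 1 then 1 else 0 := by
  classical
  rw [NB, Matrix.sub_apply, Matrix.one_apply]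
  simp only [JB, Cfsg.jordanBlock, Matrix.of_apply]
  by_cases h1 : a = b
  · subst h1; simp
  · have h2 : (a : ℕ) ≠ b := fun h => h1 (Fin.ext h)
    simp [h1, h2]

theorem NB_mulVec_eh (s : ℕ) : NB F n *ᵥ eh F n s = eh F n (s + 1) := by
  classical
  by_cases h : s < n
  · rw [eh_of_lt F h]
    funext a
    rw [Matrix.mulVec_single_one]
    simp only [Matrix.col_apply, NB_apply, eh]
  · rw [eh_of_le F (not_lt.1 h), eh_of_le F (by omega : n ≤ s + 1), Matrix.mulVec_zero]

theorem NB_pow_mulVec_eh (j s : ℕ) : NB F n ^ j *ᵥ eh F n s = eh F n (s + j) := by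
  induction j generalizing s with
  | zero => simp
  | succ j ih =>
    rw [pow_succ, ← Matrix.mulVec_mulVec, NB_mulVec_eh, ih]
    congr 1
    omega

theorem JB_mulVec_eh (s : ℕ) : JB F n *ᵥ eh F n s = eh F n s + eh F n (s + 1) := by
  have : JB F n = NB F n + 1 := by simp [NB]
  rw [this, Matrix.add_mulVec, NB_mulVec_eh, Matrix.one_mulVec, add_comm]

theorem linearMap_ext_eh {W : Type*} [AddCommGroup W] [Module F W] (f g : (Fin n → F) →ₗ[F] W)
    (h : ∀ s : ℕ, f (eh F n s) = g (eh F n s)) : f = g := by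
  classical
  apply LinearMap.pi_ext'
  intro a
  apply LinearMap.ext_ring
  simp only [LinearMap.coe_comp, Function.comp_apply, LinearMap.coe_single]
  rw [← eh_single]
  exact h _

theorem NB_pow_self : NB F n ^ n = 0 := by
  classical
  apply Matrix.toLin'.injective
  apply linearMap_ext_eh
  intro s
  simp only [Matrix.toLin'_apply, map_zero, LinearMap.zero_apply]
  rw [NB_pow_mulVec_eh, eh_of_le F (by omega)]

theorem NB_mulVec_succ (x : Fin n → F) (s : ℕ) (h : s + 1 < n) :
    (NB F n *ᵥ x) ⟨s + 1, h⟩ = x ⟨s, by omega⟩ := by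
  classical
  rw [Matrix.mulVec, dotProduct, Finset.sum_eq_single (⟨s, by omega⟩ : Fin n)]
  · rw [NB_apply, if_pos (by simp), one_mul]
  · intro b _ hb
    rw [NB_apply, if_neg, zero_mul]
    intro h2
    apply hb
    apply Fin.ext
    simp at h2 ⊢
    omega
  · simp

theorem NBt_mulVec_of_succ (x : Fin n → F) (s : ℕ) (h : s + 1 < n) :
    ((NB F n)ᵀ *ᵥ x) ⟨s, by omega⟩ = x ⟨s + 1, h⟩ := by
  classical
  rw [Matrix.mulVec, dotProduct, Finset.sum_eq_single (⟨s + 1, h⟩ : Fin n)]
  · rw [Matrix.transpose_apply, NB_apply, if_pos (by simp), one_mul]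
  · intro b _ hb
    rw [Matrix.transpose_apply, NB_apply, if_neg, zero_mul]
    intro h2
    apply hb
    apply Fin.ext
    simp at h2 ⊢
    omega
  · simp

theorem NBt_mulVec_top (x : Fin n → F) (s : ℕ) (h : s < n) (h1 : s + 1 = n) :
    ((NB F n)ᵀ *ᵥ x) ⟨s, h⟩ = 0 := by
  classical
  rw [Matrix.mulVec, dotProduct]
  apply Finset.sum_eq_zero
  intro b _
  rw [Matrix.transpose_apply, NB_apply, if_neg, zero_mul]
  have := b.2
  simp only
  omega

theorem JB_inv : ∃ Ji : Matrix (Fin n) (Fin n) F, JB F n * Ji = 1 ∧ Ji * JB F n = 1 := by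
  have hnil : IsNilpotent (NB F n) := ⟨n, NB_pow_self F⟩
  have h := hnil.isUnit_one_add
  have h2 : (1 : Matrix (Fin n) (Fin n) F) + NB F n = JB F n := by simp [NB]
  rw [h2] at h
  obtain ⟨u, hu⟩ := h
  refine ⟨(↑u⁻¹ : Matrix (Fin n) (Fin n) F), ?_, ?_⟩
  · rw [← hu]; exact u.mul_inv
  · rw [← hu]; exact u.inv_mul

variable {F}

/-- Kernel contained in a line. -/
theorem finrank_ker_le_one_of {V : Type*} [AddCommGroup V] [Module F V] [FiniteDimensional F V]
    (f : V →ₗ[F] V) (v : V) (h : ∀ x, f x = 0 → ∃ c : F, x = c • v) :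
    finrank F (LinearMap.ker f) ≤ 1 := by
  have h1 : LinearMap.ker f ≤ Submodule.span F {v} := by
    intro x hx
    obtain ⟨c, rfl⟩ := h x hx
    exact Submodule.smul_mem _ _ (Submodule.mem_span_singleton_self v)
  refine (Submodule.finrank_mono h1).trans ?_
  have := finrank_span_le_card (R := F) ({v} : Set V)
  simpa using this

variable (F) in
theorem NB_ker_line (hn : 1 ≤ n) (x : Fin n → F) (hx : NB F n *ᵥ x = 0) :
    ∃ c : F, x = c • eh F n (n - 1) := by
  refine ⟨x ⟨n - 1, by omega⟩, ?_⟩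
  funext a
  simp only [Pi.smul_apply, eh, smul_eq_mul]
  by_cases h : (a : ℕ) = n - 1
  · have : a = ⟨n - 1, by omega⟩ := Fin.ext h
    rw [if_pos h, mul_one, this]
  · rw [if_neg h, mul_zero]
    have h1 : (a : ℕ) + 1 < n := by have := a.2; omega
    have := NB_mulVec_succ F x a h1
    rw [hx] at this
    simpa using this.symm

variable (F) in
theorem NBt_ker_line (hn : 1 ≤ n) (x : Fin n → F) (hx : (NB F n)ᵀ *ᵥ x = 0) :
    ∃ c : F, x = c • eh F n 0 := by
  refine ⟨x ⟨0, by omega⟩, ?_⟩
  funext a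
  simp only [Pi.smul_apply, eh, smul_eq_mul]
  by_cases h : (a : ℕ) = 0
  · have : a = ⟨0, by omega⟩ := Fin.ext h
    rw [if_pos h, mul_one, this]
  · rw [if_neg h, mul_zero]
    obtain ⟨m, hm⟩ : ∃ m, (a : ℕ) = m + 1 := ⟨a - 1, by omega⟩
    have h1 : m + 1 < n := by have := a.2; omega
    have := NBt_mulVec_of_succ F x m h1
    rw [hx] at this
    have h2 : a = ⟨m + 1, h1⟩ := Fin.ext hm
    rw [h2]
    simpa using this.symm

/-- Any two regular nilpotents on spaces of the same dimension are conjugate by a linear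
equivalence. -/
theorem reg_equiv {V W : Type*} [AddCommGroup V] [Module F V] [FiniteDimensional F V]
    [AddCommGroup W] [Module F W] [FiniteDimensional F W] (hn : 1 ≤ n)
    (hV : finrank F V = n) (hW : finrank F W = n) (N₁ : V →ₗ[F] V) (N₂ : W →ₗ[F] W)
    (h1 : N₁ ^ n = 0) (h2 : N₂ ^ n = 0)
    (k1 : finrank F (LinearMap.ker N₁) ≤ 1) (k2 : finrank F (LinearMap.ker N₂) ≤ 1) :
    ∃ L : V ≃ₗ[F] W, ∀ v, L (N₁ v) = N₂ (L v) := by
  let e₀ : V ≃ₗ[F] W := LinearEquiv.ofFinrankEq V W (by rw [hV, hW])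
  let N₃ : V →ₗ[F] V := e₀.symm.toLinearMap ∘ₗ N₂ ∘ₗ e₀.toLinearMap
  have hpow : ∀ (j : ℕ) (v : V), (N₃ ^ j) v = e₀.symm ((N₂ ^ j) (e₀ v)) := by
    intro j
    induction j with
    | zero => intro v; simp
    | succ j ih =>
      intro v
      rw [pow_succ, pow_succ, Module.End.mul_apply, Module.End.mul_apply, ih]
      simp [N₃]
  have h3 : N₃ ^ n = 0 := by
    ext v
    rw [hpow, h2]
    simp
  obtain ⟨w₁, hw₁⟩ := Cfsg.Agent.Lib.RegUnip.exists_cyclic N₁ n hV k1 h1 hn
  obtain ⟨w₂, hw₂⟩ := Cfsg.Agent.Lib.RegUnip.exists_cyclic N₂ n hW k2 h2 hn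
  have hw₃ : (N₃ ^ (n - 1)) (e₀.symm w₂) ≠ 0 := by
    rw [hpow]
    simpa using hw₂
  obtain ⟨e, -, he⟩ := Cfsg.Agent.Lib.RegUnip.exists_equiv_conj N₁ N₃ n hV h1 h3 w₁ _ hw₁ hw₃
  refine ⟨e.trans e₀, ?_⟩
  intro v
  simp only [LinearEquiv.trans_apply]
  rw [he]
  simp [N₃]

/-- A bilinear form invariant under a block gives a block shape. -/
theorem JF_of_form (B : (Fin n → F) →ₗ[F] (Fin n → F) →ₗ[F] F)
    (hinv : ∀ x y, B (JB F n *ᵥ x) (JB F n *ᵥ y) = B x y)
    (hsep : ∀ y, (∀ x, B x y = 0) → y = 0) :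
    JF n (fun s r => B (eh F n s) (eh F n r)) where
  out_l s r hs := by simp [eh_of_le F hs]
  out_r s r hs := by simp [eh_of_le F hs]
  rel s r := by
    have := hinv (eh F n s) (eh F n r)
    rw [JB_mulVec_eh, JB_mulVec_eh] at this
    simp only [map_add, LinearMap.add_apply] at this
    linear_combination this
  nd_r y hy := by
    classical
    have h1 : (fun a : Fin n => y a) = 0 := by
      apply hsep
      have hy2 : ∀ s < n, B (eh F n s) (fun a : Fin n => y a) = 0 := by
        intro s hs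
        rw [← hy s hs]
        have : (fun a : Fin n => y a) = ∑ a : Fin n, y a • eh F n a := by
          funext b
          simp only [Finset.sum_apply, Pi.smul_apply, eh, smul_eq_mul]
          rw [Finset.sum_eq_single b]
          · simp
          · intro c _ hc
            have : (b : ℕ) ≠ c := fun h => hc (Fin.ext h.symm)
            simp [this]
          · simp
        rw [this, map_sum, ← Fin.sum_univ_eq_sum_range (fun r => B (eh F n s) (eh F n r) * y r) n]
        apply Finset.sum_congr rfl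
        intro a _
        rw [map_smul, smul_eq_mul, mul_comm]
      have : B.flip (fun a : Fin n => y a) = 0 := by
        apply linearMap_ext_eh
        intro s
        rw [LinearMap.flip_apply, LinearMap.zero_apply]
        by_cases hs : s < n
        · exact hy2 s hs
        · rw [eh_of_le F (not_lt.1 hs)]; simp
      intro x
      have h2 := LinearMap.congr_fun this x
      simpa using h2
    intro r hr
    exact congrFun h1 ⟨r, hr⟩

/-- The flip of a separating form. -/
theorem JF_of_form_left (B : (Fin n → F) →ₗ[F] (Fin n → F) →ₗ[F] F)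
    (hsep : ∀ x, (∀ y, B x y = 0) → x = 0) (y : ℕ → F)
    (hy : ∀ r < n, ∑ s ∈ range n, B (eh F n s) (eh F n r) * y s = 0) : ∀ s < n, y s = 0 := by
  classical
  have h1 : (fun a : Fin n => y a) = 0 := by
    apply hsep
    have hy2 : ∀ r < n, B (fun a : Fin n => y a) (eh F n r) = 0 := by
      intro s hs
      rw [← hy s hs]
      have : (fun a : Fin n => y a) = ∑ a : Fin n, y a • eh F n a := by
        funext b
        simp only [Finset.sum_apply, Pi.smul_apply, eh, smul_eq_mul]
        rw [Finset.sum_eq_single b]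
        · simp
        · intro c _ hc
          have : (b : ℕ) ≠ c := fun h => hc (Fin.ext h.symm)
          simp [this]
        · simp
      rw [this, map_sum, LinearMap.sum_apply, ← Fin.sum_univ_eq_sum_range (fun r => B (eh F n r) (eh F n s) * y r) n]
      apply Finset.sum_congr rfl
      intro a _
      rw [map_smul, LinearMap.smul_apply, smul_eq_mul, mul_comm]
    have : B (fun a : Fin n => y a) = 0 := by
      apply linearMap_ext_eh
      intro s
      rw [LinearMap.zero_apply]
      by_cases hs : s < n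
      · exact hy2 s hs
      · rw [eh_of_le F (not_lt.1 hs)]; simp
    intro x
    exact LinearMap.congr_fun this x
  intro r hr
  exact congrFun h1 ⟨r, hr⟩

/-- Transport a form through a conjugacy. -/
theorem exists_form_of_model {W : Type*} [AddCommGroup W] [Module F W] [FiniteDimensional F W]
    (hn : 1 ≤ n) (hW : finrank F W = n) (ω : W →ₗ[F] W →ₗ[F] F) (A : W →ₗ[F] W)
    (hA : ∀ x y, ω (A x) (A y) = ω x y)
    (hnil : (A - LinearMap.id) ^ n = 0)
    (hker : finrank F (LinearMap.ker (A - LinearMap.id)) ≤ 1) :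
    ∃ L : (Fin n → F) ≃ₗ[F] W, ∀ x y, (ω.compl₁₂ L.toLinearMap L.toLinearMap) (JB F n *ᵥ x) (JB F n *ᵥ y)
      = (ω.compl₁₂ L.toLinearMap L.toLinearMap) x y := by
  classical
  obtain ⟨L, hL⟩ := reg_equiv (F := F) hn (by simp) hW (NB F n).mulVecLin (A - LinearMap.id)
    (by rw [← Cfsg.Agent.Lib.RegUnip.mulVecLin_pow_eq, NB_pow_self]; ext; simp) hnil
    (finrank_ker_le_one_of _ (eh F n (n - 1)) (fun x hx => NB_ker_line F hn x hx)) hker
  refine ⟨L, ?_⟩
  have h1 : ∀ v, L (JB F n *ᵥ v) = A (L v) := by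
    intro v
    have h2 := hL v
    have h3 : JB F n *ᵥ v = NB F n *ᵥ v + v := by
      simp [NB, Matrix.sub_mulVec]
    rw [h3, map_add]
    simp only [Matrix.mulVecLin_apply] at h2
    rw [h2]
    simp
  intro x y
  simp only [LinearMap.compl₁₂_apply, LinearEquiv.coe_coe]
  rw [h1, h1, hA]

end Cfsg.Agent.Lib.JordanForm
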