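import Mathlib
import Cfsg.Agent.Lib.JordanForm.Basic

/-! The commutant of a unipotent matrix of given Jordan type. -/

set_option autoImplicit false

namespace Cfsg.Agent.Lib.JordanForm

open Matrix Finset Module

variable {F : Type*} [Field F] {t : ℕ} {d : Fin t → ℕ}

theorem NN_pow_coord (j : ℕ) (w : Ix d → F) (k : Fin t) (r : ℕ) (h : r + j < d k) :
    (NN F d ^ j *ᵥ w) ⟨k, ⟨r + j, h⟩⟩ = w ⟨k, ⟨r, by omega⟩⟩ := by
  induction j with
  | zero => simp
  | succ j ih =>
    rw [pow_succ', ← Matrix.mulVec_mulVec]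
    have h1 : r + j + 1 < d k := by omega
    exact (NN_mulVec_succ F _ k (r + j) h1).trans (ih (by omega))

theorem matrix_ext_ee (A B : Matrix (Ix d) (Ix d) F)
    (h : ∀ k s, A *ᵥ ee F d k s = B *ᵥ ee F d k s) : A = B := by
  apply Matrix.toLin'.injective
  apply linearMap_ext_ee
  intro k s
  simpa using h k s

theorem comm_mulVec_ee {X : Matrix (Ix d) (Ix d) F} (hX : X * NN F d = NN F d * X) (k : Fin t) (s : ℕ) :
    X *ᵥ ee F d k s = NN F d ^ s *ᵥ (X *ᵥ ee F d k 0) := by
  have h1 : ee F d k s = NN F d ^ s *ᵥ ee F d k 0 := by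
    rw [NN_pow_mulVec_ee, zero_add]
  have h2 : Commute X (NN F d) := hX
  rw [h1, Matrix.mulVec_mulVec, Matrix.mulVec_mulVec, (h2.pow_right s).eq]

theorem ker_coord {j : ℕ} {w : Ix d → F} (hw : NN F d ^ j *ᵥ w = 0) (a : Ix d) (h : (a.2 : ℕ) + j < d a.1) :
    w a = 0 := by
  obtain ⟨k, r⟩ := a
  have := NN_pow_coord j w k r h
  rw [hw] at this
  exact this.symm

theorem ker_of_coord {j : ℕ} {w : Ix d → F} (h : ∀ a : Ix d, (a.2 : ℕ) + j < d a.1 → w a = 0) :
    NN F d ^ j *ᵥ w = 0 := by
  classical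
  have hw : w = ∑ a : Ix d, w a • ee F d a.1 a.2 := by
    funext b
    simp only [Finset.sum_apply, Pi.smul_apply, smul_eq_mul]
    rw [Finset.sum_eq_single b]
    · rw [ee_single]; simp
    · intro c _ hc
      rw [ee_single]
      simp [Ne.symm hc]
    · simp
  rw [hw, Matrix.mulVec_sum]
  apply Finset.sum_eq_zero
  intro a _
  rw [Matrix.mulVec_smul, NN_pow_mulVec_ee]
  by_cases h1 : (a.2 : ℕ) + j < d a.1
  · rw [h a h1, zero_smul]
  · rw [ee_of_le F (not_lt.1 h1), smul_zero]

/-- The count of indices of a block above a given height. -/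
theorem card_filter_fin (n j : ℕ) : (univ.filter (fun r : Fin n => ¬ (r : ℕ) + j < n)).card = min j n := by
  have h1 : (univ.filter (fun r : Fin n => ¬ (r : ℕ) + j < n)).card
      = ((univ.filter (fun r : Fin n => ¬ (r : ℕ) + j < n)).map Fin.valEmbedding).card := by
    rw [Finset.card_map]
  have h2 : (univ.filter (fun r : Fin n => ¬ (r : ℕ) + j < n)).map Fin.valEmbedding = Finset.Ico (n - j) n := by
    ext x
    simp only [Finset.mem_map, Finset.mem_filter, Finset.mem_univ, true_and, Fin.valEmbedding_apply, Finset.mem_Ico]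
    constructor
    · rintro ⟨r, h3, rfl⟩
      have := r.2
      omega
    · rintro ⟨h3, h4⟩
      exact ⟨⟨x, h4⟩, by simp; omega, rfl⟩
  rw [h1, h2, Nat.card_Ico]
  omega

/-- The number of vectors killed by a power of `N`. -/
theorem card_ker_pow [Fintype F] (j : ℕ) :
    Nat.card {w : Ix d → F // NN F d ^ j *ᵥ w = 0} = Fintype.card F ^ (∑ l, min j (d l)) := by
  classical
  let S := {a : Ix d // ¬ (a.2 : ℕ) + j < d a.1}
  have hS : Fintype.card S = ∑ l, min j (d l) := by
    rw [Fintype.card_subtype]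
    have : (univ.filter (fun a : Ix d => ¬ (a.2 : ℕ) + j < d a.1)) =
        (univ : Finset (Fin t)).sigma (fun l => univ.filter (fun r : Fin (d l) => ¬ (r : ℕ) + j < d l)) := by
      ext ⟨l, r⟩
      simp
    rw [this, Finset.card_sigma]
    apply Finset.sum_congr rfl
    intro l _
    exact card_filter_fin _ _
  let e : {w : Ix d → F // NN F d ^ j *ᵥ w = 0} ≃ (S → F) :=
    { toFun := fun w a => w.1 a.1
      invFun := fun f => ⟨fun a => if h : ¬ (a.2 : ℕ) + j < d a.1 then f ⟨a, h⟩ else 0, by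
        apply ker_of_coord
        intro a ha
        rw [dif_neg (not_not.2 ha)]⟩
      left_inv := fun w => by
        apply Subtype.ext
        funext a
        by_cases h : ¬ (a.2 : ℕ) + j < d a.1
        · simp only [dif_pos h]
        · simp only [dif_neg h]
          exact (ker_coord w.2 a (not_not.1 h)).symm
      right_inv := fun f => by
        funext a
        simp only [dif_pos a.2]
        rfl }
  rw [Nat.card_congr e, Nat.card_eq_fintype_card, Fintype.card_fun, hS]

/-- The commuting matrix attached to a family of vectors. -/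
noncomputable def mkX (w : Fin t → Ix d → F) : Matrix (Ix d) (Ix d) F :=
  Matrix.of fun a b => (NN F d ^ (b.2 : ℕ) *ᵥ w b.1) a

theorem mkX_mulVec_ee (w : Fin t → Ix d → F) (hw : ∀ k, NN F d ^ d k *ᵥ w k = 0) (k : Fin t) (s : ℕ) :
    mkX w *ᵥ ee F d k s = NN F d ^ s *ᵥ w k := by
  classical
  by_cases h : s < d k
  · rw [ee_of_lt F h]
    funext a
    rw [Matrix.mulVec_single_one]
    rfl
  · rw [ee_of_le F (not_lt.1 h), Matrix.mulVec_zero]
    obtain ⟨m, rfl⟩ : ∃ m, s = m + d k := ⟨s - d k, by omega⟩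
    rw [pow_add, ← Matrix.mulVec_mulVec, hw, Matrix.mulVec_zero]

theorem mkX_comm (w : Fin t → Ix d → F) (hw : ∀ k, NN F d ^ d k *ᵥ w k = 0) :
    mkX w * NN F d = NN F d * mkX w := by
  apply matrix_ext_ee
  intro k s
  rw [← Matrix.mulVec_mulVec, ← Matrix.mulVec_mulVec, NN_mulVec_ee, mkX_mulVec_ee w hw, mkX_mulVec_ee w hw,
    Matrix.mulVec_mulVec, ← pow_succ']

/-- The commutant is a product of kernels. -/
noncomputable def centEquiv :
    {X : Matrix (Ix d) (Ix d) F // X * NN F d = NN F d * X} ≃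
      ∀ k : Fin t, {w : Ix d → F // NN F d ^ d k *ᵥ w = 0} where
  toFun X k := ⟨X.1 *ᵥ ee F d k 0, by
    have h : Commute X.1 (NN F d) := X.2
    rw [Matrix.mulVec_mulVec, ← (h.pow_right _).eq, ← Matrix.mulVec_mulVec, NN_pow_mulVec_ee,
      ee_of_le F (by omega), Matrix.mulVec_zero]⟩
  invFun w := ⟨mkX (fun k => (w k).1), mkX_comm _ (fun k => (w k).2)⟩
  left_inv X := by
    apply Subtype.ext
    apply matrix_ext_ee
    intro k s
    simp only
    rw [mkX_mulVec_ee _ (fun k => by
      have h : Commute X.1 (NN F d) := X.2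
      rw [Matrix.mulVec_mulVec, ← (h.pow_right _).eq, ← Matrix.mulVec_mulVec, NN_pow_mulVec_ee,
        ee_of_le F (by omega), Matrix.mulVec_zero]), comm_mulVec_ee X.2 k s]
  right_inv w := by
    funext k
    apply Subtype.ext
    simp only
    rw [mkX_mulVec_ee _ (fun k => (w k).2)]
    simp

theorem card_comm [Fintype F] :
    Nat.card {X : Matrix (Ix d) (Ix d) F // X * NN F d = NN F d * X} =
      Fintype.card F ^ (∑ k, ∑ l, min (d k) (d l)) := by
  classical
  rw [Nat.card_congr centEquiv, Nat.card_pi]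
  simp only [card_ker_pow]
  rw [Finset.prod_pow_eq_pow_sum]

section Blocks

variable (hd : ∀ k, 1 ≤ d k)

/-- Top index of a block. -/
def topI (k : Fin t) : Ix d := ⟨k, ⟨0, hd k⟩⟩

/-- The size `i` part of the block index. -/
abbrev KK (d : Fin t → ℕ) (i : ℕ) : Type := {k : Fin t // d k = i}

/-- The leading block of a matrix at size `i`. -/
def blockOf (X : Matrix (Ix d) (Ix d) F) (i : ℕ) : Matrix (KK d i) (KK d i) F :=
  Matrix.of fun l k => X (topI hd l.1) (topI hd k.1)

include hd in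
theorem topI_ee (k : Fin t) : ee F d k 0 = Pi.single (topI hd k) 1 :=
  ee_single F (topI hd k)

theorem entry_eq (X : Matrix (Ix d) (Ix d) F) (a : Ix d) (k : Fin t) (s : ℕ) (h : s < d k) :
    X a ⟨k, ⟨s, h⟩⟩ = (X *ᵥ ee F d k s) a := by
  classical
  rw [ee_of_lt F h, Matrix.mulVec_single_one]
  rfl

theorem comm_entry_low {X : Matrix (Ix d) (Ix d) F} (hX : X * NN F d = NN F d * X) (a : Ix d) (k : Fin t) (s : ℕ)
    (h : s < d k) (ha : (a.2 : ℕ) < s) : X a ⟨k, ⟨s, h⟩⟩ = 0 := by
  rw [entry_eq X a k s h, comm_mulVec_ee hX]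
  exact NN_pow_mulVec_low F s _ a ha

theorem comm_entry_ker {X : Matrix (Ix d) (Ix d) F} (hX : X * NN F d = NN F d * X) (a : Ix d) (k : Fin t)
    (h : (a.2 : ℕ) + d k < d a.1) : X a (topI hd k) = 0 := by
  have h0 : NN F d ^ d k *ᵥ (X *ᵥ ee F d k 0) = 0 := by
    have h1 : Commute X (NN F d) := hX
    rw [Matrix.mulVec_mulVec, ← (h1.pow_right _).eq, ← Matrix.mulVec_mulVec, NN_pow_mulVec_ee,
      ee_of_le F (by omega), Matrix.mulVec_zero]
  have := ker_coord h0 a h
  rw [← this]
  exact entry_eq X a k 0 (hd k)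

/-- A commuting matrix with invertible leading blocks is invertible. -/
theorem isUnit_of_blocks {X : Matrix (Ix d) (Ix d) F} (hX : X * NN F d = NN F d * X)
    (hb : ∀ k, IsUnit (blockOf hd X (d k))) : IsUnit X := by
  classical
  rw [← Matrix.mulVec_injective_iff_isUnit]
  show Function.Injective (Matrix.mulVecLin X)
  rw [injective_iff_map_eq_zero]
  intro x hx0
  have hx1 : X *ᵥ x = 0 := hx0
  by_contra hne
  -- pass to the kernel of `N`
  obtain ⟨D, hD⟩ := NN_isNilpotent F (d := d)
  have hex : ∃ h, NN F d ^ h *ᵥ x = 0 := ⟨D, by rw [hD, Matrix.zero_mulVec]⟩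
  let h₀ := Nat.find hex
  have hh₀ : NN F d ^ h₀ *ᵥ x = 0 := Nat.find_spec hex
  have hh₀0 : h₀ ≠ 0 := by
    intro h0
    rw [h0, pow_zero, Matrix.one_mulVec] at hh₀
    exact hne hh₀
  obtain ⟨h₁, hh₁⟩ : ∃ h₁, h₀ = h₁ + 1 := ⟨h₀ - 1, by omega⟩
  have hmin : NN F d ^ h₁ *ᵥ x ≠ 0 := Nat.find_min hex (by omega)
  set z := NN F d ^ h₁ *ᵥ x with hz
  have hNz : NN F d *ᵥ z = 0 := by
    rw [hz, Matrix.mulVec_mulVec, ← pow_succ', ← hh₁]
    exact hh₀
  have hXz : X *ᵥ z = 0 := by
    have h1 : Commute X (NN F d) := hX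
    rw [hz, Matrix.mulVec_mulVec, (h1.pow_right _).eq, ← Matrix.mulVec_mulVec, hx1, Matrix.mulVec_zero]
  have hcoord : ∀ a : Ix d, (a.2 : ℕ) + 1 < d a.1 → z a = 0 := by
    intro a ha
    apply ker_coord (j := 1) _ a ha
    rw [pow_one]
    exact hNz
  -- bottom indices
  let bot : Fin t → Ix d := fun k => ⟨k, ⟨d k - 1, by have := hd k; omega⟩⟩
  have hzsum : z = ∑ k, z (bot k) • ee F d k (d k - 1) := by
    funext b
    simp only [Finset.sum_apply, Pi.smul_apply, smul_eq_mul]
    obtain ⟨l, r⟩ := b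
    rw [Finset.sum_eq_single l]
    · by_cases h : (r : ℕ) + 1 < d l
      · rw [hcoord ⟨l, r⟩ h]
        simp only [ee]
        rw [if_neg (by simp; omega), mul_zero]
      · have h2 : r = ⟨d l - 1, by have := hd l; omega⟩ := Fin.ext (by have := r.2; simp; omega)
        simp only [ee, bot]
        rw [if_pos (by simp; omega), mul_one, h2]
    · intro k _ hk
      simp only [ee]
      rw [if_neg (by simp; exact fun h => absurd h.symm hk), mul_zero]
    · simp
  -- minimal size in the support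
  have hsupp : ∃ k, z (bot k) ≠ 0 := by
    by_contra hcon
    push Not at hcon
    apply hmin
    rw [hzsum]
    apply Finset.sum_eq_zero
    intro k _
    rw [hcon, zero_smul]
  let T := univ.filter (fun k => z (bot k) ≠ 0)
  have hT : T.Nonempty := by
    obtain ⟨k, hk⟩ := hsupp
    exact ⟨k, by simp [T, hk]⟩
  obtain ⟨k₀, hk₀, hmn⟩ := Finset.exists_min_image T d hT
  set i := d k₀ with hi
  have hk₀' : z (bot k₀) ≠ 0 := by simpa [T] using hk₀
  have hmn' : ∀ k, z (bot k) ≠ 0 → i ≤ d k := fun k hk => hmn k (by simp [T, hk])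
  -- the block equation
  let v : KK d i → F := fun k => z (bot k.1)
  have hv : blockOf hd X i *ᵥ v = 0 := by
    funext l
    obtain ⟨l, hl⟩ := l
    have hi1 : i - 1 < d l := by have := hd k₀; omega
    have h1 := congrFun hXz ⟨l, ⟨i - 1, hi1⟩⟩
    rw [hzsum, Matrix.mulVec_sum, Finset.sum_apply] at h1
    have h2 : ∀ k, (X *ᵥ (z (bot k) • ee F d k (d k - 1))) ⟨l, ⟨i - 1, hi1⟩⟩ =
        if h : d k = i then (blockOf hd X i ⟨l, hl⟩ ⟨k, h⟩) * z (bot k) else 0 := by
      intro k
      rw [Matrix.mulVec_smul, comm_mulVec_ee hX, Pi.smul_apply, smul_eq_mul]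
      by_cases hk : z (bot k) = 0
      · simp [hk]
      · have hle := hmn' k hk
        by_cases h3 : d k = i
        · rw [dif_pos h3]
          have h4 : d k - 1 = i - 1 := by omega
          rw [h4]
          have h5 : 0 + (i - 1) < d l := by omega
          have h6 := NN_pow_coord (i - 1) (X *ᵥ ee F d k 0) l 0 h5
          have h7 : (⟨l, ⟨i - 1, hi1⟩⟩ : Ix d) = ⟨l, ⟨0 + (i - 1), h5⟩⟩ := by
            congr 2
            simp
          rw [h7, h6, mul_comm]
          congr 1
          exact (entry_eq X _ k 0 (hd k)).symm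
        · rw [dif_neg h3]
          have h8 := NN_pow_mulVec_low F (d k - 1) (X *ᵥ ee F d k 0) ⟨l, ⟨i - 1, hi1⟩⟩ (by
            simp only
            have := hd k₀
            omega)
          rw [h8, mul_zero]
    simp only [h2, Pi.zero_apply] at h1
    rw [Pi.zero_apply, Matrix.mulVec, dotProduct]
    rw [← h1]
    have h9 : ∑ k : KK d i, blockOf hd X i ⟨l, hl⟩ k * v k =
        ∑ k ∈ univ.filter (fun k => d k = i), (if h : d k = i then (blockOf hd X i ⟨l, hl⟩ ⟨k, h⟩) * z (bot k) else 0) := by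
      rw [Finset.sum_subtype (p := fun k => d k = i) (univ.filter (fun k => d k = i)) (by simp)
        (fun k => if h : d k = i then (blockOf hd X i ⟨l, hl⟩ ⟨k, h⟩) * z (bot k) else 0)]
      apply Finset.sum_congr rfl
      intro k _
      rw [dif_pos k.2]
    rw [h9]
    apply Finset.sum_filter_of_ne
    intro k _ hk
    by_contra h
    exact hk (dif_neg h)
  have hv0 : v = 0 := by
    have h1 := hb k₀
    rw [← hi] at h1
    exact (Matrix.mulVec_injective_iff_isUnit.2 h1) (by rw [hv, Matrix.mulVec_zero])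
  exact hk₀' (congrFun hv0 ⟨k₀, rfl⟩)

/-- Leading blocks multiply. -/
theorem block_mul {X Y : Matrix (Ix d) (Ix d) F} (hX : X * NN F d = NN F d * X) (hY : Y * NN F d = NN F d * Y)
    (i : ℕ) : blockOf hd (X * Y) i = blockOf hd X i * blockOf hd Y i := by
  classical
  ext ⟨l, hl⟩ ⟨k, hk⟩
  simp only [blockOf, Matrix.of_apply, Matrix.mul_apply]
  rw [Fintype.sum_sigma]
  have h1 : ∀ m : Fin t, ∑ s : Fin (d m), X (topI hd l) ⟨m, s⟩ * Y ⟨m, s⟩ (topI hd k) =
      X (topI hd l) (topI hd m) * Y (topI hd m) (topI hd k) := by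
    intro m
    rw [Finset.sum_eq_single (⟨0, hd m⟩ : Fin (d m))]
    · rfl
    · intro s _ hs
      have hs0 : 0 < (s : ℕ) := by
        apply Nat.pos_of_ne_zero
        exact fun h => hs (Fin.ext h)
      rw [comm_entry_low hX (topI hd l) m s s.2 hs0, zero_mul]
    · simp
  simp only [h1]
  have h2 : ∀ m : Fin t, d m ≠ i → X (topI hd l) (topI hd m) * Y (topI hd m) (topI hd k) = 0 := by
    intro m hm
    by_cases h3 : d m < i
    · rw [comm_entry_ker hd hX (topI hd l) m (by simp [topI]; omega), zero_mul]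
    · rw [comm_entry_ker hd hY (topI hd m) k (by simp [topI]; omega), mul_zero]
  rw [← Finset.sum_filter_of_ne (s := univ) (p := fun m => d m = i)]
  · rw [Finset.sum_subtype (p := fun k => d k = i) (univ.filter (fun k => d k = i)) (by simp)
      (fun m => X (topI hd l) (topI hd m) * Y (topI hd m) (topI hd k))]
  · intro m _ hm
    by_contra h
    exact hm (h2 m h)

theorem block_one (i : ℕ) : blockOf hd (1 : Matrix (Ix d) (Ix d) F) i = 1 := by
  classical
  ext ⟨l, hl⟩ ⟨k, hk⟩
  simp only [blockOf, Matrix.of_apply, Matrix.one_apply, topI, Subtype.mk.injEq]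
  by_cases h : l = k
  · subst h; simp
  · have : ¬ ((⟨l, ⟨0, hd l⟩⟩ : Ix d) = ⟨k, ⟨0, hd k⟩⟩) := by
      intro h2
      exact h (congrArg Sigma.fst h2)
    simp [this, h]

/-- An invertible commuting matrix has invertible leading blocks. -/
theorem blocks_of_isUnit {X : Matrix (Ix d) (Ix d) F} (hX : X * NN F d = NN F d * X) (hu : IsUnit X) (i : ℕ) :
    IsUnit (blockOf hd X i) := by
  obtain ⟨u, rfl⟩ := hu
  set Ui : Matrix (Ix d) (Ix d) F := ((u⁻¹ : (Matrix (Ix d) (Ix d) F)ˣ) : Matrix (Ix d) (Ix d) F) with hUi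
  have h3 : Ui * (u : Matrix (Ix d) (Ix d) F) = 1 := u.inv_mul
  have h4 : (u : Matrix (Ix d) (Ix d) F) * Ui = 1 := u.mul_inv
  have hY : Ui * NN F d = NN F d * Ui := by
    have h1 : Ui * ((u : Matrix (Ix d) (Ix d) F) * NN F d) * Ui = Ui * (NN F d * u) * Ui := by rw [hX]
    rw [← mul_assoc, h3, one_mul, mul_assoc, mul_assoc, h4, mul_one] at h1
    exact h1.symm
  have h2 := block_mul hd hX hY i
  rw [h4, block_one] at h2
  exact IsUnit.of_mul_eq_one _ h2.symm

end Blocks

/-- Fibres of a surjective linear map have equal size. -/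
theorem fiber_count {A B : Type*} [AddCommGroup A] [Module F A] [AddCommGroup B] [Module F B]
    [Finite A] [Finite B] (Φ : A →ₗ[F] B) (hΦ : Function.Surjective Φ) (S : Set B) :
    Nat.card {a // Φ a ∈ S} * Nat.card B = Nat.card A * Nat.card S := by
  classical
  obtain ⟨g, hg⟩ := Φ.exists_rightInverse_of_surjective (LinearMap.range_eq_top.2 hΦ)
  have hg' : ∀ b, Φ (g b) = b := fun b => LinearMap.congr_fun hg b
  let e₁ : {a // Φ a ∈ S} ≃ (LinearMap.ker Φ) × S :=
    { toFun := fun a => (⟨a.1 - g (Φ a.1), by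
        rw [LinearMap.mem_ker, map_sub, hg', sub_self]⟩, ⟨Φ a.1, a.2⟩)
      invFun := fun p => ⟨p.1.1 + g p.2.1, by
        rw [map_add, hg', LinearMap.mem_ker.1 p.1.2, zero_add]
        exact p.2.2⟩
      left_inv := fun a => by
        apply Subtype.ext
        simp
      right_inv := fun p => by
        apply Prod.ext
        · apply Subtype.ext
          simp [LinearMap.mem_ker.1 p.1.2, hg']
        · apply Subtype.ext
          simp [LinearMap.mem_ker.1 p.1.2, hg'] }
  let e₂ : A ≃ (LinearMap.ker Φ) × B :=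
    { toFun := fun a => (⟨a - g (Φ a), by
        rw [LinearMap.mem_ker, map_sub, hg', sub_self]⟩, Φ a)
      invFun := fun p => p.1.1 + g p.2
      left_inv := fun a => by simp
      right_inv := fun p => by
        apply Prod.ext
        · apply Subtype.ext
          simp [LinearMap.mem_ker.1 p.1.2, hg']
        · simp [LinearMap.mem_ker.1 p.1.2, hg'] }
  rw [Nat.card_congr e₁, Nat.card_congr e₂, Nat.card_prod, Nat.card_prod]
  ring

/-- The commutant as a subspace. -/
def commSub (F : Type*) [Field F] {t : ℕ} (d : Fin t → ℕ) : Submodule F (Matrix (Ix d) (Ix d) F) where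
  carrier := {X | X * NN F d = NN F d * X}
  add_mem' := by
    intro a b ha hb
    simp only [Set.mem_ofPred_eq] at ha hb ⊢
    rw [add_mul, mul_add, ha, hb]
  zero_mem' := by simp
  smul_mem' := by
    intro c x hx
    simp only [Set.mem_ofPred_eq] at hx ⊢
    rw [Matrix.smul_mul, Matrix.mul_smul, hx]

/-- The block map. -/
def blockMap (hd : ∀ k, 1 ≤ d k) :
    commSub F d →ₗ[F] (∀ i : Fin (univ.sup d + 1), Matrix (KK d i) (KK d i) F) where
  toFun X i := blockOf hd X.1 i
  map_add' X Y := by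
    funext i
    ext l k
    rfl
  map_smul' c X := by
    funext i
    ext l k
    rfl

theorem blockMap_surjective (hd : ∀ k, 1 ≤ d k) : Function.Surjective (blockMap (F := F) hd) := by
  classical
  intro Y
  have hle : ∀ k, d k < univ.sup d + 1 := fun k =>
    Nat.lt_succ_of_le (Finset.le_sup (f := d) (Finset.mem_univ k))
  let w : Fin t → Ix d → F := fun k =>
    ∑ l : Fin t, (if h : d l = d k then Y ⟨d k, hle k⟩ ⟨l, h⟩ ⟨k, rfl⟩ else 0) • ee F d l 0
  have hw : ∀ k, NN F d ^ d k *ᵥ w k = 0 := by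
    intro k
    simp only [w]
    rw [Matrix.mulVec_sum]
    apply Finset.sum_eq_zero
    intro l _
    rw [Matrix.mulVec_smul, NN_pow_mulVec_ee, zero_add]
    by_cases h : d l = d k
    · rw [ee_of_le F (by omega), smul_zero]
    · rw [dif_neg h, zero_smul]
  refine ⟨⟨mkX w, mkX_comm w hw⟩, ?_⟩
  funext i
  ext ⟨l, hl⟩ ⟨k, hk⟩
  show mkX w (topI hd l) (topI hd k) = _
  have h1 : mkX w (topI hd l) (topI hd k) = w k (topI hd l) := by
    simp [mkX, topI]
  rw [h1]
  simp only [w]
  rw [Finset.sum_apply, Finset.sum_eq_single l]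
  · obtain ⟨i, hi⟩ := i
    simp only at hl hk
    subst hk
    simp [ee, topI, hl]
  · intro m _ hm
    have : ¬ (l = m ∧ (0 : ℕ) = 0) := fun h => hm h.1.symm
    simp [ee, topI, hm.symm]
  · simp

/-- Invertible commuting matrices correspond to invertible blocks. -/
noncomputable def gEquiv (hd : ∀ k, 1 ≤ d k) :
    {g : Matrix.GeneralLinearGroup (Ix d) F // (g : Matrix (Ix d) (Ix d) F) * JJ F d = JJ F d * (g : Matrix (Ix d) (Ix d) F)} ≃
    {X : commSub F d // blockMap hd X ∈ {Y : ∀ i : Fin (univ.sup d + 1), Matrix (KK d i) (KK d i) F | ∀ i, IsUnit (Y i)}} where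
  toFun g := ⟨⟨g.1, by
      have h := g.2
      show (g.1 : Matrix (Ix d) (Ix d) F) * (JJ F d - 1) = (JJ F d - 1) * g.1
      rw [mul_sub, sub_mul, h]
      simp⟩, fun i => blocks_of_isUnit hd (by
      have h := g.2
      show (g.1 : Matrix (Ix d) (Ix d) F) * (JJ F d - 1) = (JJ F d - 1) * g.1
      rw [mul_sub, sub_mul, h]
      simp) g.1.isUnit _⟩
  invFun X := ⟨(isUnit_of_blocks hd X.1.2 (fun k => X.2 ⟨d k, Nat.lt_succ_of_le (Finset.le_sup (f := d) (Finset.mem_univ k))⟩)).unit, by
      have h : (X.1.1 : Matrix (Ix d) (Ix d) F) * (JJ F d - 1) = (JJ F d - 1) * X.1.1 := X.1.2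
      rw [mul_sub, sub_mul] at h
      simp only [mul_one, one_mul] at h
      have h2 := sub_left_injective h
      exact h2⟩
  left_inv g := by
    apply Subtype.ext
    apply Units.ext
    rfl
  right_inv X := by
    apply Subtype.ext
    apply Subtype.ext
    rfl

theorem card_units_matrix [Fintype F] {κ : Type} [Fintype κ] [DecidableEq κ] {a : ℕ} (h : Fintype.card κ = a) :
    Nat.card {Y : Matrix κ κ F // IsUnit Y} = ∏ j : Fin a, (Fintype.card F ^ a - Fintype.card F ^ (j : ℕ)) := by
  let e₁ : {Y : Matrix κ κ F // IsUnit Y} ≃ Matrix.GeneralLinearGroup κ F :=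
    { toFun := fun Y => Y.2.unit
      invFun := fun u => ⟨u, u.isUnit⟩
      left_inv := fun Y => Subtype.ext rfl
      right_inv := fun u => Units.ext rfl }
  let e₀ : κ ≃ Fin a := Fintype.equivFinOfCardEq h
  let e₂ : Matrix.GeneralLinearGroup κ F ≃* Matrix.GeneralLinearGroup (Fin a) F :=
    Units.mapEquiv ((Matrix.reindexAlgEquiv F F e₀).toMulEquiv)
  rw [Nat.card_congr e₁, Nat.card_congr e₂.toEquiv, Matrix.card_GL_field]

theorem card_matrix_nat [Fintype F] {κ : Type} [Fintype κ] {a : ℕ} (h : Fintype.card κ = a) :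
    Nat.card (Matrix κ κ F) = Fintype.card F ^ (a ^ 2) := by
  classical
  have : Nat.card (Matrix κ κ F) = Nat.card (κ → κ → F) := rfl
  rw [this, Nat.card_eq_fintype_card, Fintype.card_fun, Fintype.card_fun, h, ← pow_mul, pow_two]

/-- The exponent identity. -/
theorem exp_identity (hd : ∀ k, 1 ≤ d k) :
    ∑ k, ∑ l, min (d k) (d l) =
      (2 * (∑ i ∈ range (univ.sup d + 1), ∑ j ∈ range (univ.sup d + 1),
        if i < j then i * (univ.filter (fun k : Fin t => d k = i)).card * (univ.filter (fun k : Fin t => d k = j)).card else 0)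
        + ∑ i ∈ range (univ.sup d + 1), (i - 1) * (univ.filter (fun k : Fin t => d k = i)).card ^ 2)
      + ∑ i ∈ range (univ.sup d + 1), (univ.filter (fun k : Fin t => d k = i)).card ^ 2 := by
  classical
  set R := range (univ.sup d + 1) with hR
  set a : ℕ → ℕ := fun i => (univ.filter (fun k : Fin t => d k = i)).card with ha
  have hmem : ∀ k, d k ∈ R := fun k => by
    rw [hR, Finset.mem_range]
    exact Nat.lt_succ_of_le (Finset.le_sup (f := d) (Finset.mem_univ k))
  have hfib : ∀ g : ℕ → ℕ, ∑ k, g (d k) = ∑ i ∈ R, a i * g i := by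
    intro g
    rw [← Finset.sum_fiberwise_of_maps_to (s := univ) (t := R) (g := d) (fun k _ => hmem k)]
    apply Finset.sum_congr rfl
    intro i _
    rw [Finset.sum_congr rfl (g := fun _ => g i) (fun k hk => by rw [(Finset.mem_filter.1 hk).2]), Finset.sum_const, smul_eq_mul]
  have h1 : ∑ k, ∑ l, min (d k) (d l) = ∑ i ∈ R, ∑ j ∈ R, a i * a j * min i j := by
    rw [hfib (fun i => ∑ l, min i (d l))]
    apply Finset.sum_congr rfl
    intro i _
    rw [hfib (fun j => min i j), Finset.mul_sum]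
    apply Finset.sum_congr rfl
    intro j _
    ring
  have h2 : ∀ i j, a i * a j * min i j = (if i < j then i * a i * a j else 0) + (if j < i then j * a j * a i else 0)
      + (if i = j then i * a i ^ 2 else 0) := by
    intro i j
    rcases lt_trichotomy i j with h | h | h
    · rw [if_pos h, if_neg (by omega), if_neg (by omega), min_eq_left h.le]
      ring
    · subst h
      simp only [lt_irrefl, if_false, if_true, min_self]
      ring
    · rw [if_neg (by omega), if_pos h, if_neg (by omega), min_eq_right h.le]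
      ring
  have h3 : ∑ i ∈ R, ∑ j ∈ R, (if j < i then j * a j * a i else 0) = ∑ i ∈ R, ∑ j ∈ R, (if i < j then i * a i * a j else 0) := by
    rw [Finset.sum_comm]
  have h4 : ∑ i ∈ R, ∑ j ∈ R, (if i = j then i * a i ^ 2 else 0) = ∑ i ∈ R, i * a i ^ 2 := by
    apply Finset.sum_congr rfl
    intro i hi
    rw [Finset.sum_ite_eq, if_pos hi]
  have h5 : ∀ i ∈ R, i * a i ^ 2 = (i - 1) * a i ^ 2 + a i ^ 2 := by
    intro i _
    by_cases h : i = 0
    · subst h
      have : a 0 = 0 := by
        simp only [ha]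
        rw [Finset.card_eq_zero, Finset.filter_eq_empty_iff]
        intro k _
        have := hd k
        omega
      rw [this]
      simp
    · obtain ⟨m, rfl⟩ : ∃ m, i = m + 1 := ⟨i - 1, by omega⟩
      simp only [Nat.add_sub_cancel]
      ring
  rw [h1]
  simp only [h2, Finset.sum_add_distrib]
  rw [h3, h4, Finset.sum_congr rfl h5, Finset.sum_add_distrib]
  ring

/-- The centraliser count. -/
theorem card_centraliser [Fintype F] (hd : ∀ k, 1 ≤ d k) :
    Nat.card {g : Matrix.GeneralLinearGroup (Ix d) F // (g : Matrix (Ix d) (Ix d) F) * JJ F d = JJ F d * (g : Matrix (Ix d) (Ix d) F)} =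
      Fintype.card F ^ (2 * (∑ i ∈ range (univ.sup d + 1), ∑ j ∈ range (univ.sup d + 1),
        if i < j then i * (univ.filter (fun k : Fin t => d k = i)).card * (univ.filter (fun k : Fin t => d k = j)).card else 0)
        + ∑ i ∈ range (univ.sup d + 1), (i - 1) * (univ.filter (fun k : Fin t => d k = i)).card ^ 2)
      * ∏ i ∈ range (univ.sup d + 1), ∏ j : Fin ((univ.filter (fun k : Fin t => d k = i)).card),
        (Fintype.card F ^ (univ.filter (fun k : Fin t => d k = i)).card - Fintype.card F ^ (j : ℕ)) := by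
  classical
  set q := Fintype.card F with hq
  have hqpos : 0 < q := Fintype.card_pos
  set a : ℕ → ℕ := fun i => (univ.filter (fun k : Fin t => d k = i)).card with ha
  have hcardK : ∀ i : ℕ, Fintype.card (KK d i) = a i := fun i => Fintype.card_subtype _
  have hfib := fiber_count (blockMap (F := F) hd) (blockMap_surjective hd)
    {Y | ∀ i, IsUnit (Y i)}
  have hC : Nat.card (commSub F d) = q ^ (∑ k, ∑ l, min (d k) (d l)) := card_comm
  have hB : Nat.card (∀ i : Fin (univ.sup d + 1), Matrix (KK d i) (KK d i) F) =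
      q ^ (∑ i ∈ range (univ.sup d + 1), a i ^ 2) := by
    rw [Nat.card_pi]
    simp only [card_matrix_nat (F := F) (hcardK _)]
    rw [Finset.prod_pow_eq_pow_sum, Fin.sum_univ_eq_sum_range (fun i => a i ^ 2)]
  have hS : Nat.card ({Y | ∀ i, IsUnit (Y i)} : Set (∀ i : Fin (univ.sup d + 1), Matrix (KK d i) (KK d i) F)) =
      ∏ i ∈ range (univ.sup d + 1), ∏ j : Fin (a i), (q ^ a i - q ^ (j : ℕ)) := by
    have e : ({Y | ∀ i, IsUnit (Y i)} : Set (∀ i : Fin (univ.sup d + 1), Matrix (KK d i) (KK d i) F)) ≃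
        ∀ i : Fin (univ.sup d + 1), {Y : Matrix (KK d i) (KK d i) F // IsUnit Y} :=
      Equiv.subtypePiEquivPi
    rw [Nat.card_congr e, Nat.card_pi]
    simp only [card_units_matrix (F := F) (hcardK _)]
    rw [Fin.prod_univ_eq_prod_range (fun i => ∏ j : Fin (a i), (q ^ a i - q ^ (j : ℕ)))]
  rw [Nat.card_congr (gEquiv hd)]
  rw [hC, hB, hS, exp_identity hd, pow_add] at hfib
  have hpow : 0 < q ^ (∑ i ∈ range (univ.sup d + 1), a i ^ 2) := pow_pos hqpos _
  apply Nat.eq_of_mul_eq_mul_right hpow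
  rw [hfib]
  ring

end Cfsg.Agent.Lib.JordanForm
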