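import Mathlib
import Cfsg.Agent.Lib.JordanForm.Basic
import Cfsg.Agent.Lib.KnownSimple.AltForm

/-! Necessity of the multiplicity conditions for Jordan types preserving a non-degenerate form. -/

set_option autoImplicit false

namespace Cfsg.Agent.Lib.JordanForm

open Matrix Finset Module

variable {F : Type*} [Field F] {t : ℕ} {d : Fin t → ℕ}

/-- The central multiplicity lemma. -/
theorem even_mult (B : (Ix d → F) →ₗ[F] (Ix d → F) →ₗ[F] F)
    (hinv : ∀ x y, B (JJ F d *ᵥ x) (JJ F d *ᵥ y) = B x y)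
    (hrep : ∀ φ : (Ix d → F) →ₗ[F] F, ∃ w, ∀ x, φ x = B x w)
    (hsep : ∀ y, (∀ x, B x y = 0) → y = 0)
    {i : ℕ} (hi : 1 ≤ i) (U T : Matrix (Ix d) (Ix d) F) (hU : IsUnit U)
    (hcomm : Commute U (NN F d)) (hT : T = U * NN F d ^ (i - 1))
    {ε : F} (hε : ε ≠ 0)
    (hadj : ∀ x y, B (T *ᵥ x) y = ε * B x (T *ᵥ y))
    (hz : ∀ x, B x (T *ᵥ x) = 0) :
    Even (univ.filter (fun k => d k = i)).card := by
  classical
  obtain ⟨Ji, hJi, hJi'⟩ := exists_JJ_inv F (d := d)
  obtain ⟨uU, rfl⟩ := hU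
  set U : Matrix (Ix d) (Ix d) F := (uU : Matrix (Ix d) (Ix d) F) with hUdef
  set Ui : Matrix (Ix d) (Ix d) F := ((uU⁻¹ : (Matrix (Ix d) (Ix d) F)ˣ) : Matrix (Ix d) (Ix d) F) with hUidef
  have hUiU : Ui * U = 1 := uU.inv_mul
  have hUUi : U * Ui = 1 := uU.mul_inv
  have hcommi : Commute Ui (NN F d) := by
    have h1 : Ui * (NN F d * U) * Ui = Ui * (U * NN F d) * Ui := by rw [hcomm.eq]
    have h2 : Ui * (U * NN F d) * Ui = NN F d * Ui := by
      rw [← mul_assoc, hUiU, one_mul]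
    have h3 : Ui * (NN F d * U) * Ui = Ui * NN F d := by
      rw [mul_assoc, mul_assoc, hUUi, mul_one]
    show Ui * NN F d = NN F d * Ui
    rw [← h3, h1, h2]
  -- adjoints
  have hadjJ : ∀ x y, B (JJ F d *ᵥ x) y = B x (Ji *ᵥ y) := by
    intro x y
    have := hinv x (Ji *ᵥ y)
    rwa [Matrix.mulVec_mulVec, hJi, Matrix.one_mulVec] at this
  have hNJ : NN F d = JJ F d - 1 := rfl
  have hJN : JJ F d = NN F d + 1 := by simp [hNJ]
  have hadjN : ∀ x y, B (NN F d *ᵥ x) y = B x ((Ji - 1) *ᵥ y) := by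
    intro x y
    rw [hNJ, Matrix.sub_mulVec, Matrix.sub_mulVec, Matrix.one_mulVec, Matrix.one_mulVec, map_sub,
      map_sub, LinearMap.sub_apply, hadjJ]
  have hadjNp : ∀ (j : ℕ) x y, B (NN F d ^ j *ᵥ x) y = B x ((Ji - 1) ^ j *ᵥ y) := by
    intro j
    induction j with
    | zero => intro x y; simp
    | succ j ih =>
      intro x y
      rw [pow_succ', ← Matrix.mulVec_mulVec, hadjN, ih, Matrix.mulVec_mulVec, ← pow_succ]
  have hJiN : Ji - 1 = NN F d * (-Ji) := by
    rw [hNJ, sub_mul, mul_neg, hJi, one_mul]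
    abel
  have hcJN : Commute (NN F d) Ji := by
    show NN F d * Ji = Ji * NN F d
    rw [hNJ, sub_mul, mul_sub, hJi, hJi']
    simp
  -- the form on `K`
  let K := {k : Fin t // d k = i}
  let vv : (K → F) →ₗ[F] (Ix d → F) := ∑ k : K, (LinearMap.proj k : (K → F) →ₗ[F] F).smulRight (ee F d k.1 0)
  have hvv : ∀ c : K → F, vv c = ∑ k : K, c k • ee F d k.1 0 := by
    intro c
    simp [vv, LinearMap.sum_apply]
  let C : (K → F) →ₗ[F] (K → F) →ₗ[F] F := B.compl₁₂ vv (T.mulVecLin ∘ₗ vv)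
  have hC : ∀ c' c, C c' c = B (vv c') (T *ᵥ vv c) := by
    intro c' c
    simp [C]
  have hCalt : ∀ c, C c c = 0 := fun c => by rw [hC]; exact hz _
  have heven := Cfsg.Agent.Lib.KnownSimple.even_finrank_range_of_alt C hCalt
  have hinj : Function.Injective C := by
    rw [injective_iff_map_eq_zero]
    intro c hc0
    -- `C c' c = 0` for all `c'`, by skewness
    have hc : ∀ c', B (vv c') (T *ᵥ vv c) = 0 := by
      intro c'
      rw [← hC]
      have h1 := hCalt (c + c')
      simp only [map_add, LinearMap.add_apply, hCalt, zero_add, add_zero] at h1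
      have h2 : C c c' = 0 := by rw [hc0]; simp
      rw [h2, add_zero] at h1
      exact h1
    set y := T *ᵥ vv c with hy
    -- `N y = 0`
    have hNv : NN F d ^ i *ᵥ vv c = 0 := by
      rw [hvv, Matrix.mulVec_sum]
      apply Finset.sum_eq_zero
      intro k _
      rw [Matrix.mulVec_smul, NN_pow_mulVec_ee, ee_of_le F (by rw [k.2]; omega), smul_zero]
    have hNy : NN F d *ᵥ y = 0 := by
      have : NN F d * T = U * NN F d ^ i := by
        rw [hT, ← mul_assoc, ← hcomm.eq, mul_assoc, ← pow_succ']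
        congr 2
        omega
      rw [hy, Matrix.mulVec_mulVec, this, ← Matrix.mulVec_mulVec, hNv, Matrix.mulVec_zero]
    -- orthogonality to the kernel of `N^i`
    have hker : ∀ (k : Fin t) (s : ℕ), d k ≤ s + i → B (ee F d k s) y = 0 := by
      intro k s hks
      by_cases h1 : d k ≤ s + (i - 1)
      · have h2 : T *ᵥ ee F d k s = 0 := by
          rw [hT, ← Matrix.mulVec_mulVec, NN_pow_mulVec_ee, ee_of_le F h1, Matrix.mulVec_zero]
        have h3 := hadj (ee F d k s) (vv c)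
        rw [h2, map_zero, LinearMap.zero_apply] at h3
        exact (mul_eq_zero.1 h3.symm).resolve_left hε
      · have h2 : s + i = d k := by omega
        cases s with
        | zero =>
          have hk : d k = i := by omega
          have h3 := hc (Pi.single ⟨k, hk⟩ 1)
          have h4 : vv (Pi.single ⟨k, hk⟩ 1) = ee F d k 0 := by
            rw [hvv, Finset.sum_eq_single (⟨k, hk⟩ : K)]
            · simp
            · intro b _ hb
              simp [Pi.single_apply, hb]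
            · simp
          rw [h4] at h3
          exact h3
        | succ s =>
          have hcm : NN F d * (-Ji) = (-Ji) * NN F d := by
            rw [mul_neg, neg_mul, hcJN.eq]
          rw [← NN_mulVec_ee, hadjN, hJiN, hcm, ← Matrix.mulVec_mulVec, hNy, Matrix.mulVec_zero, map_zero]
    -- the functional
    let ψa : Ix d → F := fun a => if i ≤ (a.2 : ℕ) then B (ee F d a.1 (a.2 - i)) y else 0
    let ψ : (Ix d → F) →ₗ[F] F := ∑ a : Ix d, (ψa a) • (LinearMap.proj a : (Ix d → F) →ₗ[F] F)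
    have hψ : ∀ x, ψ x = ∑ a, ψa a * x a := by
      intro x
      simp [ψ, LinearMap.sum_apply]
    have hψee : ∀ (k : Fin t) (r : ℕ), ψ (ee F d k r) = if h : r < d k then ψa ⟨k, ⟨r, h⟩⟩ else 0 := by
      intro k r
      by_cases h : r < d k
      · rw [dif_pos h, ee_of_lt F h, hψ, Finset.sum_eq_single (⟨k, ⟨r, h⟩⟩ : Ix d)]
        · simp
        · intro b _ hb
          simp [Pi.single_apply, hb]
        · simp
      · rw [dif_neg h, ee_of_le F (not_lt.1 h), map_zero]
    have hfac : ∀ x, B x y = ψ (NN F d ^ i *ᵥ x) := by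
      have : B.flip y = ψ ∘ₗ (NN F d ^ i).mulVecLin := by
        apply linearMap_ext_ee
        intro k s
        simp only [LinearMap.flip_apply, LinearMap.comp_apply, Matrix.mulVecLin_apply]
        rw [NN_pow_mulVec_ee, hψee]
        by_cases h : s + i < d k
        · rw [dif_pos h]
          simp [ψa]
        · rw [dif_neg h]
          exact hker k s (by omega)
      intro x
      have h := LinearMap.congr_fun this x
      simpa using h
    obtain ⟨w, hw⟩ := hrep ψ
    have hy2 : y = NN F d ^ i *ᵥ ((-Ji) ^ i *ᵥ w) := by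
      have h1 : y = (Ji - 1) ^ i *ᵥ w := by
        rw [← sub_eq_zero]
        apply hsep
        intro x
        rw [map_sub, hfac, hw, hadjNp, sub_self]
      have hcm2 : Commute (NN F d) (-Ji) := by
        show NN F d * (-Ji) = (-Ji) * NN F d
        rw [mul_neg, neg_mul, hcJN.eq]
      rw [h1, hJiN, hcm2.mul_pow, Matrix.mulVec_mulVec]
    -- conclude
    have hy3 : NN F d ^ (i - 1) *ᵥ vv c = NN F d ^ i *ᵥ (Ui *ᵥ ((-Ji) ^ i *ᵥ w)) := by
      have h1 : NN F d ^ (i - 1) *ᵥ vv c = Ui *ᵥ y := by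
        rw [hy, hT, Matrix.mulVec_mulVec, ← mul_assoc, hUiU, one_mul]
      rw [h1, hy2, Matrix.mulVec_mulVec, (hcommi.pow_right i).eq, ← Matrix.mulVec_mulVec]
    funext k
    have hk : i - 1 < d k.1 := by rw [k.2]; omega
    have h1 := congrFun hy3 ⟨k.1, ⟨i - 1, hk⟩⟩
    rw [NN_pow_mulVec_low F i _ _ (by simp; omega)] at h1
    rw [hvv, Matrix.mulVec_sum, Finset.sum_apply, Finset.sum_eq_single k] at h1
    · rw [Matrix.mulVec_smul, NN_pow_mulVec_ee] at h1
      simpa [ee] using h1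
    · intro b _ hb
      rw [Matrix.mulVec_smul, NN_pow_mulVec_ee, Pi.smul_apply]
      have hb' : k.1 ≠ b.1 := fun h => hb (Subtype.ext h.symm)
      simp [ee, hb']
    · simp
  have h1 : finrank F (LinearMap.range C) = Fintype.card K := by
    rw [LinearMap.finrank_range_of_inj hinj, Module.finrank_fintype_fun_eq_card]
  rw [h1] at heven
  have h2 : Fintype.card K = (univ.filter (fun k => d k = i)).card := Fintype.card_subtype _
  rw [← h2]
  exact heven

section adj

variable (B : (Ix d → F) →ₗ[F] (Ix d → F) →ₗ[F] F)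
    (hinv : ∀ x y, B (JJ F d *ᵥ x) (JJ F d *ᵥ y) = B x y)
    {Ji : Matrix (Ix d) (Ix d) F} (hJi : JJ F d * Ji = 1) (hJi' : Ji * JJ F d = 1)

include hinv hJi in
theorem adj_J (x y) : B (JJ F d *ᵥ x) y = B x (Ji *ᵥ y) := by
  have := hinv x (Ji *ᵥ y)
  rwa [Matrix.mulVec_mulVec, hJi, Matrix.one_mulVec] at this

include hinv hJi in
theorem adj_Ji (x y) : B (Ji *ᵥ x) y = B x (JJ F d *ᵥ y) := by
  have := hinv (Ji *ᵥ x) y
  rw [Matrix.mulVec_mulVec, hJi, Matrix.one_mulVec] at this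
  exact this.symm

include hJi hJi' in
theorem comm_N_Ji : Commute (NN F d) Ji := by
  show (JJ F d - 1) * Ji = Ji * (JJ F d - 1)
  rw [sub_mul, mul_sub, hJi, hJi']
  simp

include hJi hJi' in
theorem comm_J_Ji : Commute (JJ F d) Ji := by
  show JJ F d * Ji = Ji * JJ F d
  rw [hJi, hJi']

include hJi in
theorem theta_eq : NN F d * NN F d * Ji = JJ F d + Ji - (2 : F) • 1 := by
  have h1 : NN F d = JJ F d - 1 := rfl
  rw [h1, two_smul]
  simp only [sub_mul, mul_sub, mul_assoc, hJi, mul_one, one_mul]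
  abel

include hinv hJi in
theorem adj_theta (x y) : B ((NN F d * NN F d * Ji) *ᵥ x) y = B x ((NN F d * NN F d * Ji) *ᵥ y) := by
  rw [theta_eq hJi]
  simp only [Matrix.sub_mulVec, Matrix.add_mulVec, map_sub, map_add, LinearMap.sub_apply,
    LinearMap.add_apply, Matrix.smul_mulVec, map_smul, LinearMap.smul_apply, Matrix.one_mulVec]
  rw [adj_J B hinv hJi, adj_Ji B hinv hJi]
  abel

include hinv hJi in
theorem adj_theta_pow (j : ℕ) (x y) :
    B ((NN F d * NN F d * Ji) ^ j *ᵥ x) y = B x ((NN F d * NN F d * Ji) ^ j *ᵥ y) := by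
  induction j generalizing x y with
  | zero => simp
  | succ j ih =>
    rw [pow_succ, ← Matrix.mulVec_mulVec, ih, adj_theta B hinv hJi, Matrix.mulVec_mulVec, ← pow_succ', pow_succ]

include hJi hJi' in
theorem theta_pow_eq (j : ℕ) : (NN F d * NN F d * Ji) ^ j = Ji ^ j * NN F d ^ (2 * j) := by
  have hc := comm_N_Ji hJi hJi'
  have h1 : Commute (NN F d * NN F d) Ji := hc.mul_left hc
  rw [h1.mul_pow, ← pow_two, ← pow_mul]
  exact (hc.pow_pow (2 * j) j).eq

end adj

/-- Alternating forms: odd sizes have even multiplicity. -/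
theorem even_of_alt (B : (Ix d → F) →ₗ[F] (Ix d → F) →ₗ[F] F)
    (hinv : ∀ x y, B (JJ F d *ᵥ x) (JJ F d *ᵥ y) = B x y)
    (hrep : ∀ φ : (Ix d → F) →ₗ[F] F, ∃ w, ∀ x, φ x = B x w)
    (hsep : ∀ y, (∀ x, B x y = 0) → y = 0)
    (halt : ∀ x, B x x = 0) {i : ℕ} (hi : Odd i) :
    Even (univ.filter (fun k => d k = i)).card := by
  obtain ⟨k, rfl⟩ := hi
  obtain ⟨Ji, hJi, hJi'⟩ := exists_JJ_inv F (d := d)
  have hc := comm_N_Ji hJi hJi'
  have hskew : ∀ x y, B x y = - B y x := by
    intro x y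
    have h1 := halt (x + y)
    simp only [map_add, LinearMap.add_apply, halt, zero_add, add_zero] at h1
    exact eq_neg_of_add_eq_zero_right h1
  have hJunit : IsUnit Ji := IsUnit.of_mul_eq_one _ hJi'
  refine even_mult B hinv hrep hsep (by omega) (Ji ^ k) ((NN F d * NN F d * Ji) ^ k)
    (hJunit.pow k) (hc.symm.pow_left k) ?_ (one_ne_zero) ?_ ?_
  · rw [theta_pow_eq hJi hJi']
    congr 2
  · intro x y
    rw [one_mul]
    exact adj_theta_pow B hinv hJi k x y
  · intro x
    obtain ⟨j, hj | hj⟩ := Nat.even_or_odd' k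
    · rw [hj, two_mul, pow_add, ← Matrix.mulVec_mulVec, ← adj_theta_pow B hinv hJi, halt]
    · set θ := NN F d * NN F d * Ji with hθ
      have hcθ : Commute θ (θ ^ j) := (Commute.refl θ).pow_right j
      have e : θ ^ (2 * j + 1) = θ ^ j * (θ * θ ^ j) := by
        rw [two_mul, pow_add, pow_add, pow_one, mul_assoc, hcθ.eq]
      rw [hj, e, ← Matrix.mulVec_mulVec, hθ, ← adj_theta_pow B hinv hJi, ← hθ, ← Matrix.mulVec_mulVec]
      generalize θ ^ j *ᵥ x = z
      rw [hθ, theta_eq hJi]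
      simp only [Matrix.sub_mulVec, Matrix.add_mulVec, map_sub, map_add, Matrix.smul_mulVec, map_smul,
        Matrix.one_mulVec, halt, smul_zero, sub_zero]
      rw [← adj_J B hinv hJi, hskew z]
      exact neg_add_cancel _

/-- Symmetric forms, characteristic not two: even sizes have even multiplicity. -/
theorem even_of_symm (h2 : (2 : F) ≠ 0) (B : (Ix d → F) →ₗ[F] (Ix d → F) →ₗ[F] F)
    (hinv : ∀ x y, B (JJ F d *ᵥ x) (JJ F d *ᵥ y) = B x y)
    (hrep : ∀ φ : (Ix d → F) →ₗ[F] F, ∃ w, ∀ x, φ x = B x w)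
    (hsep : ∀ y, (∀ x, B x y = 0) → y = 0)
    (hsym : ∀ x y, B x y = B y x) {i : ℕ} (hi : Even i) (h0 : 0 < i) :
    Even (univ.filter (fun k => d k = i)).card := by
  obtain ⟨k, rfl⟩ : ∃ k, i = 2 * k + 2 := by
    obtain ⟨r, hr⟩ := hi
    exact ⟨r - 1, by omega⟩
  obtain ⟨Ji, hJi, hJi'⟩ := exists_JJ_inv F (d := d)
  have hc := comm_N_Ji hJi hJi'
  have hcJ := comm_J_Ji hJi hJi'
  have hNJ : NN F d = JJ F d - 1 := rfl
  have hJunit : IsUnit Ji := IsUnit.of_mul_eq_one _ hJi'
  -- `J + 1` is a unit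
  have hJ1 : IsUnit (JJ F d + 1) := by
    have h3 : JJ F d + 1 = algebraMap F (Matrix (Ix d) (Ix d) F) 2 + NN F d := by
      rw [hNJ, map_ofNat]
      rw [show (2 : Matrix (Ix d) (Ix d) F) = 1 + 1 from one_add_one_eq_two.symm]
      abel
    rw [h3]
    have hu : IsUnit (algebraMap F (Matrix (Ix d) (Ix d) F) 2) :=
      (isUnit_iff_ne_zero.2 h2).map _
    exact IsNilpotent.isUnit_add_left_of_commute (NN_isNilpotent F) hu (Algebra.commutes _ _).symm
  set θ := NN F d * NN F d * Ji with hθ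
  set δ := JJ F d - Ji with hδ
  have hδ2 : δ = (JJ F d + 1) * Ji * NN F d := by
    calc δ = JJ F d - JJ F d * Ji + 1 - Ji := by rw [hδ, hJi]; abel
      _ = (JJ F d + 1) * (1 - Ji) := by noncomm_ring
      _ = (JJ F d + 1) * (Ji * JJ F d - Ji) := by rw [hJi']
      _ = (JJ F d + 1) * Ji * (JJ F d - 1) := by rw [mul_assoc, mul_sub Ji, mul_one]
  have hcNJ : Commute (NN F d) (JJ F d) := (Commute.refl _).sub_left (Commute.one_left _)
  have hcNδ : Commute (NN F d) δ := hcNJ.sub_right hc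
  have hcJiδ : Commute Ji δ := hcJ.symm.sub_right (Commute.refl _)
  have hcθδ : Commute θ δ := (hcNδ.mul_left hcNδ).mul_left hcJiδ
  have hcNJ1 : Commute (NN F d) (JJ F d + 1) := hcNJ.add_right (Commute.one_right _)
  have hadjδ : ∀ x y, B (δ *ᵥ x) y = - B x (δ *ᵥ y) := by
    intro x y
    simp only [hδ, Matrix.sub_mulVec, map_sub, LinearMap.sub_apply]
    rw [adj_J B hinv hJi, adj_Ji B hinv hJi]
    abel
  have hadjT : ∀ x y, B ((δ * θ ^ k) *ᵥ x) y = (-1) * B x ((δ * θ ^ k) *ᵥ y) := by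
    intro x y
    rw [← Matrix.mulVec_mulVec, hadjδ, hθ, adj_theta_pow B hinv hJi, ← hθ, Matrix.mulVec_mulVec,
      (hcθδ.pow_left k).eq]
    ring
  refine even_mult B hinv hrep hsep (by omega) ((JJ F d + 1) * Ji * Ji ^ k) (δ * θ ^ k)
    ((hJ1.mul hJunit).mul (hJunit.pow k)) ?_ ?_ (neg_ne_zero.2 one_ne_zero) hadjT ?_
  · exact ((hcNJ1.mul_right hc).mul_right (hc.pow_right k)).symm
  · rw [hθ, theta_pow_eq hJi hJi', hδ2]
    have e : 2 * k + 2 - 1 = 1 + 2 * k := by omega
    rw [e, pow_add, pow_one]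
    have h5 : NN F d * Ji ^ k = Ji ^ k * NN F d := (hc.pow_right k).eq
    calc (JJ F d + 1) * Ji * NN F d * (Ji ^ k * NN F d ^ (2 * k))
        = (JJ F d + 1) * Ji * (NN F d * Ji ^ k) * NN F d ^ (2 * k) := by noncomm_ring
      _ = (JJ F d + 1) * Ji * (Ji ^ k * NN F d) * NN F d ^ (2 * k) := by rw [h5]
      _ = _ := by noncomm_ring
  · intro x
    have h1 := hadjT x x
    rw [hsym] at h1
    have h3 : (2 : F) * B x ((δ * θ ^ k) *ᵥ x) = 0 := by
      rw [two_mul]
      nth_rewrite 1 [h1]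
      ring
    exact (mul_eq_zero.1 h3).resolve_left h2

end Cfsg.Agent.Lib.JordanForm
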