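import Mathlib
import Cfsg.Agent.Lib.JordanForm.Nec
import Cfsg.Agent.Lib.JordanForm.Cent

/-! Leading block calculus for a `J`-invariant bilinear form. -/

set_option autoImplicit false
set_option linter.unusedSectionVars false

namespace Cfsg.Agent.Lib.JordanForm

open Matrix Finset Module

variable {F : Type*} [Field F] {t : ℕ} {d : Fin t → ℕ}

theorem vec_expand (w : Ix d → F) : w = ∑ a : Ix d, w a • ee F d a.1 a.2 := by
  classical
  funext b
  simp only [Finset.sum_apply, Pi.smul_apply, smul_eq_mul]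
  rw [Finset.sum_eq_single b]
  · rw [ee_single]; simp
  · intro c _ hc
    rw [ee_single]
    simp [Ne.symm hc]
  · simp

section pair

variable (B : (Ix d → F) →ₗ[F] (Ix d → F) →ₗ[F] F)
    (hinv : ∀ x y, B (JJ F d *ᵥ x) (JJ F d *ᵥ y) = B x y)
    {Ji : Matrix (Ix d) (Ix d) F} (hJi : JJ F d * Ji = 1) (hJi' : Ji * JJ F d = 1)

include hinv hJi in
theorem adj_N_left (x y : Ix d → F) : B (NN F d *ᵥ x) y = B x ((Ji - 1) *ᵥ y) := by
  have hNJ : NN F d = JJ F d - 1 := rfl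
  rw [hNJ, Matrix.sub_mulVec, Matrix.sub_mulVec, Matrix.one_mulVec, Matrix.one_mulVec, map_sub,
      map_sub, LinearMap.sub_apply, adj_J B hinv hJi]

include hinv hJi in
theorem adj_N_right (x y : Ix d → F) : B x (NN F d *ᵥ y) = B ((Ji - 1) *ᵥ x) y := by
  have hNJ : NN F d = JJ F d - 1 := rfl
  rw [hNJ, Matrix.sub_mulVec, Matrix.sub_mulVec, Matrix.one_mulVec, Matrix.one_mulVec, map_sub,
      map_sub, LinearMap.sub_apply, adj_Ji B hinv hJi]

include hinv hJi in
theorem adj_Np_left (j : ℕ) (x y : Ix d → F) : B (NN F d ^ j *ᵥ x) y = B x ((Ji - 1) ^ j *ᵥ y) := by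
  induction j generalizing x y with
  | zero => simp
  | succ j ih =>
    rw [pow_succ', ← Matrix.mulVec_mulVec, adj_N_left B hinv hJi, ih, Matrix.mulVec_mulVec, ← pow_succ]

include hinv hJi in
theorem adj_Np_right (j : ℕ) (x y : Ix d → F) : B x (NN F d ^ j *ᵥ y) = B ((Ji - 1) ^ j *ᵥ x) y := by
  induction j generalizing x y with
  | zero => simp
  | succ j ih =>
    rw [pow_succ', ← Matrix.mulVec_mulVec, adj_N_right B hinv hJi, ih, Matrix.mulVec_mulVec, ← pow_succ]

include hJi hJi' in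
theorem Ji_sub_pow (j : ℕ) : (Ji - 1) ^ j = (-Ji) ^ j * NN F d ^ j := by
  have h1 : Ji - 1 = (-Ji) * NN F d := by
    have hNJ : NN F d = JJ F d - 1 := rfl
    rw [hNJ, neg_mul, mul_sub, hJi', mul_one]
    abel
  have hc : Commute (-Ji) (NN F d) := ((comm_N_Ji hJi hJi').symm).neg_left
  rw [h1, hc.mul_pow]

include hinv hJi hJi' in
theorem pair_zero_left {j : ℕ} {x : Ix d → F} (y : Ix d → F) (h : NN F d ^ j *ᵥ x = 0) :
    B x (NN F d ^ j *ᵥ y) = 0 := by
  rw [adj_Np_right B hinv hJi, Ji_sub_pow hJi hJi', ← Matrix.mulVec_mulVec, h, Matrix.mulVec_zero, map_zero,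
    LinearMap.zero_apply]

include hinv hJi hJi' in
theorem pair_zero_right {j : ℕ} (x : Ix d → F) {y : Ix d → F} (h : NN F d ^ j *ᵥ y = 0) :
    B (NN F d ^ j *ᵥ x) y = 0 := by
  rw [adj_Np_left B hinv hJi, Ji_sub_pow hJi hJi', ← Matrix.mulVec_mulVec, h, Matrix.mulVec_zero, map_zero]

variable (hd : ∀ k, 1 ≤ d k)

/-- Restricting a sum to the blocks of a given size. -/
theorem sum_KK {i : ℕ} (f : Fin t → F) (h : ∀ m, d m ≠ i → f m = 0) :
    ∑ m, f m = ∑ m : KK d i, f m.1 := by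
  classical
  rw [← Finset.sum_filter_of_ne (s := univ) (p := fun m => d m = i)]
  · rw [Finset.sum_subtype (p := fun k => d k = i) (univ.filter (fun k => d k = i)) (by simp) f]
  · intro m _ hm
    by_contra h2
    exact hm (h m h2)

include hinv hJi hJi' in
theorem pair_L1 {i : ℕ} (hi : 1 ≤ i) (w z : Ix d → F) (hw : NN F d ^ i *ᵥ w = 0) (hz : NN F d ^ i *ᵥ z = 0) :
    B w (NN F d ^ (i - 1) *ᵥ z) = ∑ m : KK d i, w (topI hd m.1) * B (ee F d m.1 0) (NN F d ^ (i - 1) *ᵥ z) := by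
  classical
  have hii : i - 1 + 1 = i := by omega
  set y := NN F d ^ (i - 1) *ᵥ z with hy
  have hNy : NN F d ^ 1 *ᵥ y = 0 := by
    rw [hy, Matrix.mulVec_mulVec, ← pow_add, add_comm, hii, hz]
  have h0 : B w y = ∑ a : Ix d, w a * B (ee F d a.1 a.2) y := by
    conv_lhs => rw [vec_expand w]
    simp only [map_sum, LinearMap.sum_apply, map_smul, LinearMap.smul_apply, smul_eq_mul]
  rw [h0, Fintype.sum_sigma]
  have h1 : ∀ m : Fin t, ∑ s : Fin (d m), w ⟨m, s⟩ * B (ee F d m s) y = w (topI hd m) * B (ee F d m 0) y := by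
    intro m
    rw [Finset.sum_eq_single (⟨0, hd m⟩ : Fin (d m))]
    · rfl
    · intro s _ hs
      obtain ⟨s', hs'⟩ : ∃ s', (s : ℕ) = s' + 1 := ⟨(s : ℕ) - 1, by
        have : (s : ℕ) ≠ 0 := fun h => hs (Fin.ext h)
        omega⟩
      have h2 : ee F d m s = NN F d ^ 1 *ᵥ ee F d m s' := by
        rw [NN_pow_mulVec_ee, hs']
      rw [h2, pair_zero_right B hinv hJi hJi' _ hNy, mul_zero]
    · simp
  simp only [h1]
  apply sum_KK
  intro m hm
  rcases lt_or_gt_of_ne hm with h3 | h3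
  · have h4 : NN F d ^ (i - 1) *ᵥ ee F d m 0 = 0 := by
      rw [NN_pow_mulVec_ee, ee_of_le F (by omega)]
    rw [hy, pair_zero_left B hinv hJi hJi' _ h4, mul_zero]
  · rw [ker_coord hw (topI hd m) (by simp [topI]; omega), zero_mul]

include hinv hJi hJi' in
theorem pair_L2 {i : ℕ} (hi : 1 ≤ i) (x w : Ix d → F) (hx : NN F d ^ i *ᵥ x = 0) (hw : NN F d ^ i *ᵥ w = 0) :
    B x (NN F d ^ (i - 1) *ᵥ w) = ∑ m : KK d i, B x (NN F d ^ (i - 1) *ᵥ ee F d m.1 0) * w (topI hd m.1) := by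
  classical
  have hii : i - 1 + 1 = i := by omega
  have h0 : B x (NN F d ^ (i - 1) *ᵥ w) = ∑ a : Ix d, B x (NN F d ^ (i - 1) *ᵥ ee F d a.1 a.2) * w a := by
    conv_lhs => rw [vec_expand w]
    simp only [Matrix.mulVec_sum, Matrix.mulVec_smul, map_sum, map_smul, smul_eq_mul]
    exact Finset.sum_congr rfl (fun _ _ => mul_comm _ _)
  rw [h0, Fintype.sum_sigma]
  have h1 : ∀ m : Fin t, ∑ s : Fin (d m), B x (NN F d ^ (i - 1) *ᵥ ee F d m s) * w ⟨m, s⟩ =
      B x (NN F d ^ (i - 1) *ᵥ ee F d m 0) * w (topI hd m) := by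
    intro m
    rw [Finset.sum_eq_single (⟨0, hd m⟩ : Fin (d m))]
    · rfl
    · intro s _ hs
      obtain ⟨s', hs'⟩ : ∃ s', (s : ℕ) = s' + 1 := ⟨(s : ℕ) - 1, by
        have : (s : ℕ) ≠ 0 := fun h => hs (Fin.ext h)
        omega⟩
      have h2 : NN F d ^ (i - 1) *ᵥ ee F d m s = NN F d ^ i *ᵥ ee F d m s' := by
        rw [NN_pow_mulVec_ee, NN_pow_mulVec_ee, hs']
        congr 1
        omega
      rw [h2, pair_zero_left B hinv hJi hJi' _ hx, zero_mul]
    · simp
  simp only [h1]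
  apply sum_KK
  intro m hm
  rcases lt_or_gt_of_ne hm with h3 | h3
  · have h4 : NN F d ^ (i - 1) *ᵥ ee F d m 0 = 0 := by
      rw [NN_pow_mulVec_ee, ee_of_le F (by omega)]
    rw [h4, map_zero, zero_mul]
  · rw [ker_coord hw (topI hd m) (by simp [topI]; omega), mul_zero]

/-- The pairing of leading coordinates. -/
noncomputable def gg (i : ℕ) : Matrix (KK d i) (KK d i) F :=
  Matrix.of fun l k => B (ee F d l.1 0) (NN F d ^ (i - 1) *ᵥ ee F d k.1 0)

theorem pow_ee_zero {k : Fin t} {i : ℕ} (h : d k = i) : NN F d ^ i *ᵥ ee F d k 0 = 0 := by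
  rw [NN_pow_mulVec_ee, ee_of_le F (by omega)]

include hinv hJi hJi' in
/-- Blocks are adjoint for the leading pairing. -/
theorem block_adj {X Y : Matrix (Ix d) (Ix d) F} (hX : X * NN F d = NN F d * X) (hY : Y * NN F d = NN F d * Y)
    (hadj : ∀ x y, B (X *ᵥ x) y = B x (Y *ᵥ y)) (i : ℕ) :
    (blockOf hd X i)ᵀ * gg B i = gg B i * blockOf hd Y i := by
  classical
  ext l k
  have hi : 1 ≤ i := by
    have := hd l.1
    rw [l.2] at this
    exact this
  have hl := pow_ee_zero (F := F) l.2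
  have hk := pow_ee_zero (F := F) k.2
  have hcX : Commute X (NN F d) := hX
  have hcY : Commute Y (NN F d) := hY
  have hXl : NN F d ^ i *ᵥ (X *ᵥ ee F d l.1 0) = 0 := by
    rw [Matrix.mulVec_mulVec, ← (hcX.pow_right i).eq, ← Matrix.mulVec_mulVec, hl, Matrix.mulVec_zero]
  have hYk : NN F d ^ i *ᵥ (Y *ᵥ ee F d k.1 0) = 0 := by
    rw [Matrix.mulVec_mulVec, ← (hcY.pow_right i).eq, ← Matrix.mulVec_mulVec, hk, Matrix.mulVec_zero]
  have h1 := pair_L1 B hinv hJi hJi' hd hi _ _ hXl hk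
  have h2 := pair_L2 B hinv hJi hJi' hd hi _ _ hl hYk
  have h3 : B (X *ᵥ ee F d l.1 0) (NN F d ^ (i - 1) *ᵥ ee F d k.1 0) =
      B (ee F d l.1 0) (NN F d ^ (i - 1) *ᵥ (Y *ᵥ ee F d k.1 0)) := by
    rw [hadj, Matrix.mulVec_mulVec, Matrix.mulVec_mulVec, (hcY.pow_right (i - 1)).eq]
  rw [h3, h2] at h1
  have h4 : ∀ a : Ix d, ∀ b : Fin t, (X *ᵥ ee F d b 0) a = X a (topI hd b) := by
    intro a b
    exact (entry_eq X a b 0 (hd b)).symm
  have h5 : ∀ a : Ix d, ∀ b : Fin t, (Y *ᵥ ee F d b 0) a = Y a (topI hd b) := by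
    intro a b
    exact (entry_eq Y a b 0 (hd b)).symm
  simp only [h4, h5] at h1
  simp only [Matrix.mul_apply, Matrix.transpose_apply, blockOf, gg, Matrix.of_apply]
  exact h1.symm

include hinv hJi hJi' hd in
/-- The leading pairing is non-degenerate. -/
theorem gg_isUnit (hrep : ∀ φ : (Ix d → F) →ₗ[F] F, ∃ w, ∀ x, φ x = B x w)
    (hsep : ∀ y, (∀ x, B x y = 0) → y = 0) (i : ℕ) : IsUnit (gg B i : Matrix (KK d i) (KK d i) F) := by
  classical
  rw [← Matrix.mulVec_injective_iff_isUnit]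
  show Function.Injective (Matrix.mulVecLin (gg B i))
  rw [injective_iff_map_eq_zero]
  intro c hc0
  have hc1 : gg B i *ᵥ c = 0 := hc0
  by_cases hi : i = 0
  · funext l
    have := hd l.1
    rw [l.2] at this
    omega
  have hi1 : 1 ≤ i := by omega
  have hii : i - 1 + 1 = i := by omega
  set z : Ix d → F := ∑ k : KK d i, c k • ee F d k.1 0 with hzdef
  have hc : ∀ l : KK d i, B (ee F d l.1 0) (NN F d ^ (i - 1) *ᵥ z) = 0 := by
    intro l
    have h1 := congrFun hc1 l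
    rw [hzdef, Matrix.mulVec_sum, map_sum]
    simp only [Matrix.mulVec_smul, map_smul, smul_eq_mul]
    simpa [Matrix.mulVec, dotProduct, gg, mul_comm] using h1
  have hNv : NN F d ^ i *ᵥ z = 0 := by
    rw [hzdef, Matrix.mulVec_sum]
    apply Finset.sum_eq_zero
    intro k _
    rw [Matrix.mulVec_smul, pow_ee_zero k.2, smul_zero]
  set y := NN F d ^ (i - 1) *ᵥ z with hy
  have hNy : NN F d ^ 1 *ᵥ y = 0 := by
    rw [hy, Matrix.mulVec_mulVec, ← pow_add, add_comm, hii, hNv]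
  -- orthogonality to the kernel of `N^i`
  have hker : ∀ (k : Fin t) (s : ℕ), d k ≤ s + i → B (ee F d k s) y = 0 := by
    intro k s hks
    by_cases h1 : d k ≤ s + (i - 1)
    · have h2 : NN F d ^ (i - 1) *ᵥ ee F d k s = 0 := by
        rw [NN_pow_mulVec_ee, ee_of_le F h1]
      rw [hy]
      exact pair_zero_left B hinv hJi hJi' _ h2
    · have h2 : s + i = d k := by omega
      cases s with
      | zero =>
        have hk : d k = i := by omega
        exact hc ⟨k, hk⟩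
      | succ s =>
        have h3 : ee F d k (s + 1) = NN F d ^ 1 *ᵥ ee F d k s := by
          rw [NN_pow_mulVec_ee]
        rw [h3]
        exact pair_zero_right B hinv hJi hJi' _ hNy
  -- the functional
  let ψa : Ix d → F := fun a => if i ≤ (a.2 : ℕ) then B (ee F d a.1 (a.2 - i)) y else 0
  let ψ : (Ix d → F) →ₗ[F] F := ∑ a : Ix d, (ψa a) • (LinearMap.proj a : (Ix d → F) →ₗ[F] F)
  have hψ : ∀ x, ψ x = ∑ a, ψa a * x a := by
    intro x
    simp [ψ, LinearMap.sum_apply]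
  have hψee : ∀ (k : Fin t) (r : ℕ), ψ (ee F d k r) = if h : r < d k then ψa ⟨k, ⟨r, h⟩⟩ else 0 := by
    intro k r
    by_cases h : r < d k
    · rw [dif_pos h, ee_of_lt F h, hψ, Finset.sum_eq_single (⟨k, ⟨r, h⟩⟩ : Ix d)]
      · simp
      · intro b _ hb
        simp [Pi.single_apply, hb]
      · simp
    · rw [dif_neg h, ee_of_le F (not_lt.1 h), map_zero]
  have hfac : ∀ x, B x y = ψ (NN F d ^ i *ᵥ x) := by
    have : B.flip y = ψ ∘ₗ (NN F d ^ i).mulVecLin := by
      apply linearMap_ext_ee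
      intro k s
      simp only [LinearMap.flip_apply, LinearMap.comp_apply, Matrix.mulVecLin_apply]
      rw [NN_pow_mulVec_ee, hψee]
      by_cases h : s + i < d k
      · rw [dif_pos h]
        simp [ψa]
      · rw [dif_neg h]
        exact hker k s (by omega)
    intro x
    have h := LinearMap.congr_fun this x
    simpa using h
  obtain ⟨w, hw⟩ := hrep ψ
  have hy2 : y = (Ji - 1) ^ i *ᵥ w := by
    rw [← sub_eq_zero]
    apply hsep
    intro x
    rw [map_sub, hfac, hw, adj_Np_left B hinv hJi, sub_self]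
  have hy3 : y = NN F d ^ i *ᵥ ((-Ji) ^ i *ᵥ w) := by
    have hc2 : Commute (-Ji) (NN F d) := ((comm_N_Ji hJi hJi').symm).neg_left
    rw [hy2, Ji_sub_pow hJi hJi', Matrix.mulVec_mulVec, (hc2.pow_pow i i).eq]
  funext k
  have hk : 0 + (i - 1) < d k.1 := by rw [k.2]; omega
  have h1 := congrFun hy3 ⟨k.1, ⟨0 + (i - 1), hk⟩⟩
  rw [NN_pow_mulVec_low F i _ _ (by simp; omega), hy, NN_pow_coord (i - 1) z k.1 0 hk] at h1
  have h2 : z ⟨k.1, ⟨0, by omega⟩⟩ = c k := by
    rw [hzdef, Finset.sum_apply, Finset.sum_eq_single k]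
    · simp [ee]
    · intro b _ hb
      have hb' : k.1 ≠ b.1 := fun h => hb (Subtype.ext h.symm)
      simp [ee, hb']
    · simp
  rw [← h2]
  exact h1

include hinv hJi hJi' in
/-- Vectors killed by `N` are fixed by `J⁻¹`. -/
theorem Ji_fix {y : Ix d → F} (h : NN F d *ᵥ y = 0) (j : ℕ) : (-Ji) ^ j *ᵥ y = ((-1 : F) ^ j) • y := by
  have h1 : Ji *ᵥ y = y := by
    have h2 : JJ F d *ᵥ y = y := by
      have h3 : NN F d = JJ F d - 1 := rfl
      rw [h3, Matrix.sub_mulVec, Matrix.one_mulVec, sub_eq_zero] at h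
      exact h
    conv_lhs => rw [← h2]
    rw [Matrix.mulVec_mulVec, hJi', Matrix.one_mulVec]
  induction j with
  | zero => simp
  | succ j ih =>
    rw [pow_succ, ← Matrix.mulVec_mulVec, Matrix.neg_mulVec, h1, Matrix.mulVec_neg, ih, pow_succ]
    simp

include hinv hJi hJi' hd in
/-- The symmetry of the leading pairing. -/
theorem gg_symm {q : ℕ} (hherm : ∀ k r l s, B (ee F d k r) (ee F d l s) = (B (ee F d l s) (ee F d k r)) ^ q)
    {i : ℕ} (l k : KK d i) : gg B i l k = (-1) ^ (i - 1) * (gg B i k l) ^ q := by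
  classical
  have hi : 1 ≤ i := by
    have := hd l.1
    rw [l.2] at this
    exact this
  have hii : i - 1 + 1 = i := by omega
  set y := NN F d ^ (i - 1) *ᵥ ee F d l.1 0 with hy
  have hy1 : y = ee F d l.1 (i - 1) := by
    rw [hy, NN_pow_mulVec_ee, zero_add]
  have hNy : NN F d *ᵥ y = 0 := by
    rw [hy1, NN_mulVec_ee, hii, ee_of_le F (by rw [l.2])]
  have h1 : gg B i l k = B ((-Ji) ^ (i - 1) *ᵥ y) (ee F d k.1 0) := by
    simp only [gg, Matrix.of_apply]
    rw [adj_Np_right B hinv hJi, Ji_sub_pow hJi hJi', ← Matrix.mulVec_mulVec]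
  rw [h1, Ji_fix B hinv hJi hJi' hNy, map_smul, LinearMap.smul_apply, smul_eq_mul]
  congr 1
  simp only [gg, Matrix.of_apply]
  rw [hy1, NN_pow_mulVec_ee, zero_add, hherm]

end pair

end Cfsg.Agent.Lib.JordanForm
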