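import Mathlib
import Cfsg.Agent.Lib.JordanForm.Cent
import Cfsg.Agent.Lib.NormH90.GU
import Cfsg.Agent.Lib.Classical.HermOrder

/-! Counting by norms: isometries times hermitian units equals units. -/

set_option autoImplicit false
set_option linter.unusedSectionVars false

namespace Cfsg.Agent.Lib.JordanForm

open Matrix Finset Module Cfsg.Agent.Lib.Classical Cfsg.Agent.Lib.NormH90
open scoped MatrixGroups

/-- If the norm is surjective onto fixed points then the order factors. -/
theorem card_of_norm {G : Type*} [Group G] [Finite G] (σ : G → G)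
    (hmul : ∀ x y, σ (x * y) = σ y * σ x) (hσσ : ∀ x, σ (σ x) = x)
    (hs : ∀ z, σ z = z → ∃ x, σ x * x = z) :
    Nat.card G = Nat.card {x // σ x * x = 1} * Nat.card {z // σ z = z} := by
  classical
  have h1 : σ 1 = 1 := by
    have h := hmul 1 1
    rw [one_mul] at h
    exact (left_eq_mul.1 h)
  have hinv : ∀ x, σ x⁻¹ = (σ x)⁻¹ := by
    intro x
    have h := hmul x⁻¹ x
    rw [inv_mul_cancel, h1] at h
    exact eq_inv_of_mul_eq_one_right h.symm
  have hzfix : ∀ g, σ (σ g * g) = σ g * g := by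
    intro g
    rw [hmul, hσσ]
  choose s hs' using hs
  let sz : (g : G) → G := fun g => s (σ g * g) (hzfix g)
  have hsz : ∀ g, σ (sz g) * sz g = σ g * g := fun g => hs' _ _
  have hV : ∀ g, σ (g * (sz g)⁻¹) * (g * (sz g)⁻¹) = 1 := by
    intro g
    rw [hmul, hinv]
    have e : (σ (sz g))⁻¹ * σ g * (g * (sz g)⁻¹) = (σ (sz g))⁻¹ * (σ g * g) * (sz g)⁻¹ := by group
    rw [e, ← hsz]
    group
  let e : G ≃ {x // σ x * x = 1} × {z // σ z = z} :=
    { toFun := fun g => (⟨g * (sz g)⁻¹, hV g⟩, ⟨σ g * g, hzfix g⟩)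
      invFun := fun p => p.1.1 * s p.2.1 p.2.2
      left_inv := fun g => by
        show g * (sz g)⁻¹ * sz g = g
        exact inv_mul_cancel_right _ _
      right_inv := fun p => by
        obtain ⟨⟨V, hV1⟩, ⟨z, hz⟩⟩ := p
        have h2 : σ (V * s z hz) * (V * s z hz) = z := by
          rw [hmul]
          have e : σ (s z hz) * σ V * (V * s z hz) = σ (s z hz) * (σ V * V) * s z hz := by group
          rw [e, hV1, mul_one, hs']
        apply Prod.ext
        · apply Subtype.ext
          show V * s z hz * (sz (V * s z hz))⁻¹ = V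
          have h3 : sz (V * s z hz) = s z hz := by
            simp only [sz]
            congr 1
          rw [h3]
          group
        · exact Subtype.ext h2 }
  rw [Nat.card_congr e, Nat.card_prod]

/-- Fibres of a surjective additive map have equal size. -/
theorem fiber_count_add {A B : Type*} [AddCommGroup A] [AddCommGroup B] [Finite A] [Finite B]
    (Φ : A →+ B) (hΦ : Function.Surjective Φ) (S : Set B) :
    Nat.card {a // Φ a ∈ S} * Nat.card B = Nat.card A * Nat.card S := by
  classical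
  let g : B → A := Function.surjInv hΦ
  have hg' : ∀ b, Φ (g b) = b := Function.surjInv_eq hΦ
  let e₁ : {a // Φ a ∈ S} ≃ (Φ.ker) × S :=
    { toFun := fun a => (⟨a.1 - g (Φ a.1), by
        rw [AddMonoidHom.mem_ker, map_sub, hg', sub_self]⟩, ⟨Φ a.1, a.2⟩)
      invFun := fun p => ⟨p.1.1 + g p.2.1, by
        rw [map_add, hg', AddMonoidHom.mem_ker.1 p.1.2, zero_add]
        exact p.2.2⟩
      left_inv := fun a => by
        apply Subtype.ext
        simp
      right_inv := fun p => by
        apply Prod.ext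
        · apply Subtype.ext
          simp [AddMonoidHom.mem_ker.1 p.1.2, hg']
        · apply Subtype.ext
          simp [AddMonoidHom.mem_ker.1 p.1.2, hg'] }
  let e₂ : A ≃ (Φ.ker) × B :=
    { toFun := fun a => (⟨a - g (Φ a), by
        rw [AddMonoidHom.mem_ker, map_sub, hg', sub_self]⟩, Φ a)
      invFun := fun p => p.1.1 + g p.2
      left_inv := fun a => by simp
      right_inv := fun p => by
        apply Prod.ext
        · apply Subtype.ext
          simp [AddMonoidHom.mem_ker.1 p.1.2, hg']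
        · simp [AddMonoidHom.mem_ker.1 p.1.2, hg'] }
  rw [Nat.card_congr e₁, Nat.card_congr e₂, Nat.card_prod, Nat.card_prod]
  ring

/-- The fixed subgroup of an additive map. -/
def fixAdd {W : Type*} [AddCommGroup W] (τ : W → W) (hadd : ∀ x y, τ (x + y) = τ x + τ y) : AddSubgroup W where
  carrier := {x | τ x = x}
  add_mem' := by
    intro a b ha hb
    simp only [Set.mem_ofPred_eq] at ha hb ⊢
    rw [hadd, ha, hb]
  zero_mem' := by
    have h := hadd 0 0
    simp only [add_zero] at h
    simpa using h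
  neg_mem' := by
    intro a ha
    simp only [Set.mem_ofPred_eq] at ha ⊢
    have h0 : τ 0 = 0 := by
      have h := hadd 0 0
      simp only [add_zero] at h
      simpa using h
    have h := hadd a (-a)
    rw [add_neg_cancel, h0, ha] at h
    exact (neg_eq_of_add_eq_zero_right h.symm).symm

section scal

variable {K : Type*} [Field K] [Fintype K] {q : ℕ} (hK : Fintype.card K = q ^ 2)

include hK in
/-- An element with a unit trace-zero difference. -/
theorem exists_delta : ∃ e δ : K, δ ≠ 0 ∧ δ = e - e ^ q ∧ δ ^ q = - δ := by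
  obtain ⟨e, he⟩ := exists_ne_frob hK
  refine ⟨e, e - e ^ q, sub_ne_zero.2 (Ne.symm he), rfl, ?_⟩
  have h := add_pow_q hK (e - e ^ q) (e ^ q)
  rw [sub_add_cancel, pow_q_pow_q hK] at h
  rw [neg_sub]
  linear_combination -h

omit [Fintype K] in
/-- The inverse of `δ`. -/
theorem inv_delta_pow {δ : K} (h : δ ^ q = - δ) : (δ⁻¹) ^ q = - δ⁻¹ := by
  rw [inv_pow, h, inv_neg]

include hK in
/-- The fixed subgroup of a semilinear involution is a "square root" of the space. -/
theorem card_fixAdd_sq {W : Type*} [AddCommGroup W] [Module K W] [Finite W] (τ : W → W)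
    (hadd : ∀ x y, τ (x + y) = τ x + τ y) (hsm : ∀ (a : K) x, τ (a • x) = a ^ q • τ x)
    (hττ : ∀ x, τ (τ x) = x) :
    Nat.card (fixAdd τ hadd) ^ 2 = Nat.card W := by
  classical
  obtain ⟨e, δ, hδ0, hδ, hδq⟩ := exists_delta hK
  have hi := inv_delta_pow hδq
  have hsub : ∀ x y, τ (x - y) = τ x - τ y := by
    intro x y
    have h := hadd (x - y) y
    rw [sub_add_cancel] at h
    rw [h, add_sub_cancel_right]
  have hB : ∀ x : W, τ (δ⁻¹ • (x - τ x)) = δ⁻¹ • (x - τ x) := by
    intro x
    rw [hsm, hi, hsub, hττ, neg_smul, ← smul_neg, neg_sub]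
  have hA : ∀ x : W, τ (x - e • (δ⁻¹ • (x - τ x))) = x - e • (δ⁻¹ • (x - τ x)) := by
    intro x
    rw [hsub, hsm, hB]
    have h2 : x - τ x = e • (δ⁻¹ • (x - τ x)) - e ^ q • (δ⁻¹ • (x - τ x)) := by
      rw [← sub_smul, ← hδ, smul_smul, mul_inv_cancel₀ hδ0, one_smul]
    generalize δ⁻¹ • (x - τ x) = B at h2 ⊢
    rw [sub_eq_sub_iff_add_eq_add] at h2 ⊢
    rw [h2, add_comm]
  let E : W ≃ (fixAdd τ hadd) × (fixAdd τ hadd) :=
    { toFun := fun x => (⟨x - e • (δ⁻¹ • (x - τ x)), hA x⟩, ⟨δ⁻¹ • (x - τ x), hB x⟩)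
      invFun := fun p => p.1.1 + e • p.2.1
      left_inv := fun x => sub_add_cancel _ _
      right_inv := fun p => by
        obtain ⟨⟨A, hA1⟩, ⟨B, hB1⟩⟩ := p
        have hA2 : τ A = A := hA1
        have hB2 : τ B = B := hB1
        have h3 : δ⁻¹ • ((A + e • B) - τ (A + e • B)) = B := by
          rw [hadd, hsm, hA2, hB2, add_sub_add_left_eq_sub, ← sub_smul, ← hδ, smul_smul,
            inv_mul_cancel₀ hδ0, one_smul]
        apply Prod.ext
        · apply Subtype.ext
          show (A + e • B) - e • (δ⁻¹ • ((A + e • B) - τ (A + e • B))) = A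
          rw [h3, add_sub_cancel_right]
        · apply Subtype.ext
          exact h3 }
  rw [Nat.card_congr E, Nat.card_prod, pow_two]

end scal

section dag

variable {K : Type*} [Field K] [Fintype K] {q : ℕ} (hK : Fintype.card K = q ^ 2)
  {κ : Type*} [Fintype κ] [DecidableEq κ]

/-- Conjugate transpose on any index. -/
noncomputable def dag (X : Matrix κ κ K) : Matrix κ κ K := (X.map (frobQ hK))ᵀ

theorem dag_apply (X : Matrix κ κ K) (i j : κ) : dag hK X i j = (X j i) ^ q := by
  simp [dag, frobQ_apply]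

theorem dag_add (X Y : Matrix κ κ K) : dag hK (X + Y) = dag hK X + dag hK Y := by
  ext i j
  simp [dag]

theorem dag_one : dag hK (1 : Matrix κ κ K) = 1 := by
  rw [dag, Matrix.map_one _ (map_zero _) (map_one _), transpose_one]

theorem dag_mul (X Y : Matrix κ κ K) : dag hK (X * Y) = dag hK Y * dag hK X := by
  rw [dag, Matrix.map_mul, transpose_mul]
  rfl

theorem dag_dag (X : Matrix κ κ K) : dag hK (dag hK X) = X := by
  ext i j
  rw [dag_apply, dag_apply, pow_q_pow_q hK]

theorem dag_smul (a : K) (X : Matrix κ κ K) : dag hK (a • X) = a ^ q • dag hK X := by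
  ext i j
  simp only [dag_apply, Matrix.smul_apply, smul_eq_mul, mul_pow]

theorem isUnit_dag {X : Matrix κ κ K} (hX : IsUnit X) : IsUnit (dag hK X) := by
  obtain ⟨u, rfl⟩ := hX
  apply IsUnit.of_mul_eq_one (dag hK ((u⁻¹ : (Matrix κ κ K)ˣ) : Matrix κ κ K))
  rw [← dag_mul, Units.inv_mul, dag_one]

theorem dag_reindex {κ' : Type*} [Fintype κ'] [DecidableEq κ'] (f : κ ≃ κ') (X : Matrix κ κ K) :
    dag hK (Matrix.reindex f f X) = Matrix.reindex f f (dag hK X) := by
  ext i j
  simp [dag_apply]

/-- Hermitian units, twisted by a hermitian unit. -/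
theorem card_herm_twist {G : Matrix κ κ K} (hu : IsUnit G) (hh : dag hK G = G) :
    Nat.card {Y : Matrix κ κ K // IsUnit Y ∧ dag hK Y * G = G * Y} =
      Nat.card {W : Matrix κ κ K // IsUnit W ∧ dag hK W = W} := by
  obtain ⟨u, rfl⟩ := hu
  set U : Matrix κ κ K := (u : Matrix κ κ K) with hU
  set Ui : Matrix κ κ K := ((u⁻¹ : (Matrix κ κ K)ˣ) : Matrix κ κ K) with hUi
  have h1 : U * Ui = 1 := u.mul_inv
  have h2 : Ui * U = 1 := u.inv_mul
  have hiu : IsUnit Ui := IsUnit.of_mul_eq_one _ h2
  have hdi : dag hK Ui * U = 1 := by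
    have := dag_mul hK U Ui
    rw [h1, dag_one, hh] at this
    exact this.symm
  have hdi' : U * dag hK Ui = 1 := mul_eq_one_comm.1 hdi
  apply Nat.card_congr
  exact
    { toFun := fun Y => ⟨U * Y.1, (u.isUnit).mul Y.2.1, by
        rw [dag_mul, hh, Y.2.2]⟩
      invFun := fun W => ⟨Ui * W.1, hiu.mul W.2.1, by
        rw [dag_mul, W.2.2, mul_assoc, hdi, mul_one, ← mul_assoc, h1, one_mul]⟩
      left_inv := fun Y => by
        apply Subtype.ext
        simp only
        rw [← mul_assoc, h2, one_mul]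
      right_inv := fun W => by
        apply Subtype.ext
        simp only
        rw [← mul_assoc, h1, one_mul] }

/-- Reindexing hermitian units. -/
theorem card_herm_reindex {a : ℕ} (hc : Fintype.card κ = a) :
    Nat.card {W : Matrix κ κ K // IsUnit W ∧ dag hK W = W} =
      Nat.card {Z : Matrix (Fin a) (Fin a) K // IsUnit Z ∧ cj hK Z = Z} := by
  let e₀ : κ ≃ Fin a := Fintype.equivFinOfCardEq hc
  apply Nat.card_congr
  refine Equiv.subtypeEquiv (Matrix.reindex e₀ e₀) ?_
  intro W
  have h1 : IsUnit (Matrix.reindex e₀ e₀ W) ↔ IsUnit W :=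
    MulEquiv.isUnit_map (Matrix.reindexAlgEquiv K K e₀).toMulEquiv
  have h2 : cj hK (Matrix.reindex e₀ e₀ W) = dag hK (Matrix.reindex e₀ e₀ W) := rfl
  show _ ↔ (IsUnit (Matrix.reindex e₀ e₀ W) ∧ cj hK (Matrix.reindex e₀ e₀ W) = Matrix.reindex e₀ e₀ W)
  rw [h1, h2, dag_reindex, (Matrix.reindex e₀ e₀).injective.eq_iff]

/-- The count for the standard form. -/
theorem card_GL_eq (a : ℕ) :
    Nat.card (GL (Fin a) K) = Nat.card (Cfsg.GU a K q) *
      Nat.card {Z : Matrix (Fin a) (Fin a) K // IsUnit Z ∧ cj hK Z = Z} := by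
  classical
  let σ : GL (Fin a) K → GL (Fin a) K := fun g =>
    ⟨cj hK g.val, cj hK (g⁻¹).val, by rw [← cj_mul, Units.inv_mul, cj_one], by rw [← cj_mul, Units.mul_inv, cj_one]⟩
  have hσ : ∀ g, (σ g).val = cj hK g.val := fun _ => rfl
  have h := card_of_norm σ
    (fun x y => Units.ext (by rw [hσ, Units.val_mul, Units.val_mul, hσ, hσ, cj_mul]))
    (fun x => Units.ext (by rw [hσ, hσ, cj_cj]))
    (fun z hz => by
      have hz1 : cj hK z.val = z.val := by rw [← hσ, hz]
      obtain ⟨D, -, hDu, hDD⟩ := herm_norm hK z.isUnit hz1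
      obtain ⟨D', rfl⟩ := hDu
      exact ⟨D', Units.ext (by rw [Units.val_mul, hσ]; exact hDD)⟩)
  rw [h]
  congr 1
  · apply Nat.card_congr
    refine Equiv.subtypeEquivRight ?_
    intro x
    rw [mem_GU_iff hK]
    constructor
    · intro h1
      have := congrArg Units.val h1
      rwa [Units.val_mul, hσ, Units.val_one] at this
    · intro h1
      exact Units.ext (by rw [Units.val_mul, hσ, Units.val_one]; exact h1)
  · apply Nat.card_congr
    exact
      { toFun := fun z => ⟨z.1.val, z.1.isUnit, by rw [← hσ, z.2]⟩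
        invFun := fun Z => ⟨Z.2.1.unit, Units.ext (by rw [hσ]; exact Z.2.2)⟩
        left_inv := fun z => by
          apply Subtype.ext
          apply Units.ext
          rfl
        right_inv := fun Z => by
          apply Subtype.ext
          rfl }

end dag

end Cfsg.Agent.Lib.JordanForm
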