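import Mathlib
import Cfsg.Agent.Lib.JordanForm.Block

/-! Existence of invariant forms on a single Jordan block. -/

set_option autoImplicit false

namespace Cfsg.Agent.Lib.JordanForm

open Matrix Finset Module

variable {F : Type*} [Field F] {n : ℕ}

/-- Left non-degeneracy in natural number coordinates. -/
def JFL (n : ℕ) (g : ℕ → ℕ → F) : Prop :=
  ∀ y : ℕ → F, (∀ r < n, ∑ s ∈ range n, g s r * y s = 0) → ∀ s < n, y s = 0

theorem eq_zero_of_dot {ι : Type*} [Fintype ι] (v : ι → F) (h : ∀ x : ι → F, x ⬝ᵥ v = 0) : v = 0 := by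
  classical
  funext a
  simpa using h (Pi.single a 1)

theorem eq_zero_of_dot' {ι : Type*} [Fintype ι] (v : ι → F) (h : ∀ x : ι → F, v ⬝ᵥ x = 0) : v = 0 := by
  classical
  funext a
  simpa using h (Pi.single a 1)

theorem mulVec_dot {ι : Type*} [Fintype ι] (M : Matrix ι ι F) (u w : ι → F) :
    (M *ᵥ u) ⬝ᵥ w = u ⬝ᵥ (Mᵀ *ᵥ w) := by
  rw [dotProduct_comm, Matrix.dotProduct_mulVec, ← Matrix.mulVec_transpose, dotProduct_comm]

/-- `(J⁻¹ - 1)ᵀ` is nilpotent. -/
theorem inv_sub_one_pow {Ji : Matrix (Fin n) (Fin n) F} (hJi : JB F n * Ji = 1) (hJi' : Ji * JB F n = 1) :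
    (Jiᵀ - 1) ^ n = 0 := by
  have h1 : Jiᵀ - 1 = (NB F n * (-Ji))ᵀ := by
    have : NB F n * (-Ji) = Ji - 1 := by
      simp only [NB, sub_mul, mul_neg, hJi, one_mul]
      abel
    rw [this, Matrix.transpose_sub, Matrix.transpose_one]
  have hc : Commute (NB F n) (-Ji) := by
    show NB F n * (-Ji) = (-Ji) * NB F n
    simp only [NB, sub_mul, mul_sub, mul_neg, neg_mul, hJi, hJi', one_mul, mul_one]
    abel
  rw [h1, ← Matrix.transpose_pow, hc.mul_pow, NB_pow_self, zero_mul, Matrix.transpose_zero]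

/-- The pairing between a block and itself. -/
theorem exists_pair (hn : 1 ≤ n) : ∃ g : ℕ → ℕ → F, JF n g ∧ JFL n g := by
  classical
  obtain ⟨Ji, hJi, hJi'⟩ := JB_inv F (n := n)
  have hJt : (JB F n)ᵀ * Jiᵀ = 1 := by
    rw [← Matrix.transpose_mul, hJi', Matrix.transpose_one]
  have hJt' : Jiᵀ * (JB F n)ᵀ = 1 := by
    rw [← Matrix.transpose_mul, hJi, Matrix.transpose_one]
  obtain ⟨L, hL⟩ := reg_equiv (F := F) hn (V := Fin n → F) (W := Fin n → F) (by simp) (by simp)
    (NB F n).mulVecLin (Jiᵀ - 1).mulVecLin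
    (by rw [← Cfsg.Agent.Lib.RegUnip.mulVecLin_pow_eq, NB_pow_self]; ext; simp)
    (by rw [← Cfsg.Agent.Lib.RegUnip.mulVecLin_pow_eq, inv_sub_one_pow hJi hJi']; ext; simp)
    (finrank_ker_le_one_of _ (eh F n (n - 1)) (fun x hx => NB_ker_line F hn x hx))
    (finrank_ker_le_one_of _ (eh F n 0) (fun x hx => by
      apply NBt_ker_line F hn x
      have h1 : (Jiᵀ - 1) *ᵥ x = 0 := hx
      have h2 : Jiᵀ *ᵥ x = x := by
        rw [Matrix.sub_mulVec, Matrix.one_mulVec, sub_eq_zero] at h1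
        exact h1
      have h3 : (JB F n)ᵀ *ᵥ x = x := by
        nth_rewrite 1 [← h2]
        rw [Matrix.mulVec_mulVec, hJt, Matrix.one_mulVec]
      simp only [NB, Matrix.transpose_sub, Matrix.transpose_one, Matrix.sub_mulVec, Matrix.one_mulVec, h3, sub_self]))
  have hLJ : ∀ v, L (JB F n *ᵥ v) = Jiᵀ *ᵥ (L v) := by
    intro v
    have h2 := hL v
    have h3 : JB F n *ᵥ v = NB F n *ᵥ v + v := by
      simp [NB, Matrix.sub_mulVec]
    rw [h3, map_add]
    simp only [Matrix.mulVecLin_apply] at h2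
    rw [h2, Matrix.sub_mulVec, Matrix.one_mulVec]
    abel
  let B : (Fin n → F) →ₗ[F] (Fin n → F) →ₗ[F] F := LinearMap.mk₂ F (fun u v => u ⬝ᵥ L v)
    (by intros; simp [add_dotProduct]) (by intros; simp [smul_dotProduct])
    (by intros; simp [dotProduct_add]) (by intros; simp [dotProduct_smul])
  have hB : ∀ u v, B u v = u ⬝ᵥ L v := fun u v => rfl
  have hinv : ∀ x y, B (JB F n *ᵥ x) (JB F n *ᵥ y) = B x y := by
    intro x y
    rw [hB, hB, hLJ, mulVec_dot, Matrix.mulVec_mulVec, hJt, Matrix.one_mulVec]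
  have hsepR : ∀ y, (∀ x, B x y = 0) → y = 0 := by
    intro y hy
    have := eq_zero_of_dot (L y) hy
    simpa using this
  have hsepL : ∀ x, (∀ y, B x y = 0) → x = 0 := by
    intro x hx
    apply eq_zero_of_dot'
    intro z
    have := hx (L.symm z)
    rwa [hB, LinearEquiv.apply_symm_apply] at this
  exact ⟨_, JF_of_form B hinv hsepR, JF_of_form_left B hsepL⟩

/-- Bilinear forms with natural number coordinates. -/
noncomputable def formOf (n : ℕ) (g : ℕ → ℕ → F) : (Fin n → F) →ₗ[F] (Fin n → F) →ₗ[F] F :=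
  Matrix.toLinearMap₂' F (Matrix.of fun s r : Fin n => g s r)

theorem formOf_eh (g : ℕ → ℕ → F) (hl : ∀ s r, n ≤ s → g s r = 0) (hr : ∀ s r, n ≤ r → g s r = 0) (s r : ℕ) :
    formOf n g (eh F n s) (eh F n r) = g s r := by
  by_cases hs : s < n
  · by_cases hr' : r < n
    · rw [eh_of_lt F hs, eh_of_lt F hr', formOf, Matrix.toLinearMap₂'_apply']
      simp [Matrix.mulVec_single_one, single_dotProduct]
    · rw [hr s r (not_lt.1 hr'), eh_of_le F (not_lt.1 hr')]
      simp
  · rw [hl s r (not_lt.1 hs), eh_of_le F (not_lt.1 hs)]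
    simp

theorem bilin_ext_eh {W : Type*} [AddCommGroup W] [Module F W]
    (f f' : (Fin n → F) →ₗ[F] (Fin n → F) →ₗ[F] W)
    (h : ∀ s r : ℕ, f (eh F n s) (eh F n r) = f' (eh F n s) (eh F n r)) : f = f' := by
  apply linearMap_ext_eh
  intro s
  apply linearMap_ext_eh
  intro r
  exact h s r

/-- Wrapper: a model gives a block shape. -/
theorem JF_of_model {W : Type*} [AddCommGroup W] [Module F W] [FiniteDimensional F W]
    (hn : 1 ≤ n) (hW : finrank F W = n) (ω : W →ₗ[F] W →ₗ[F] F) (A : W →ₗ[F] W)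
    (hA : ∀ x y, ω (A x) (A y) = ω x y)
    (hnil : (A - LinearMap.id) ^ n = 0)
    (hker : finrank F (LinearMap.ker (A - LinearMap.id)) ≤ 1)
    (hsep : ∀ y, (∀ x, ω x y = 0) → y = 0) :
    ∃ (g : ℕ → ℕ → F) (L : (Fin n → F) ≃ₗ[F] W), JF n g ∧ ∀ s r, g s r = ω (L (eh F n s)) (L (eh F n r)) := by
  obtain ⟨L, hL⟩ := exists_form_of_model hn hW ω A hA hnil hker
  refine ⟨_, L, JF_of_form _ hL ?_, fun s r => rfl⟩
  intro y hy
  have : L y = 0 := by
    apply hsep
    intro x
    have := hy (L.symm x)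
    simpa using this
  simpa using this

/-- The anti-diagonal form. -/
def gAnti (n : ℕ) : ℕ → ℕ → F := fun s r => if s + r + 1 = n then (-1) ^ r else 0

/-- Odd blocks carry a symmetric invariant form away from characteristic two. -/
theorem exists_sym (h2 : (2 : F) ≠ 0) (hn : 1 ≤ n) (hodd : Odd n) :
    ∃ g : ℕ → ℕ → F, JF n g ∧ ∀ s r, g r s = g s r := by
  classical
  set B₁ := formOf n (gAnti (F := F) n) with hB₁
  have hl : ∀ s r, n ≤ s → gAnti (F := F) n s r = 0 := by
    intro s r h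
    simp only [gAnti]
    rw [if_neg (by omega)]
  have hr : ∀ s r, n ≤ r → gAnti (F := F) n s r = 0 := by
    intro s r h
    simp only [gAnti]
    rw [if_neg (by omega)]
  have hval : ∀ s r, B₁ (eh F n s) (eh F n r) = gAnti (F := F) n s r := formOf_eh (n := n) (gAnti (F := F) n) hl hr
  -- anti-adjointness of `N`
  have hanti : ∀ x y, B₁ (NB F n *ᵥ x) y = - B₁ x (NB F n *ᵥ y) := by
    have : B₁.comp (NB F n).mulVecLin = -(B₁.compl₂ (NB F n).mulVecLin) := by
      apply bilin_ext_eh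
      intro s r
      simp only [LinearMap.comp_apply, LinearMap.neg_apply, LinearMap.compl₂_apply, Matrix.mulVecLin_apply]
      rw [NB_mulVec_eh, NB_mulVec_eh, hval, hval]
      simp only [gAnti]
      by_cases h : s + 1 + r + 1 = n
      · rw [if_pos h, if_pos (by omega), pow_succ]
        ring
      · rw [if_neg h, if_neg (by omega), neg_zero]
    intro x y
    have h3 := LinearMap.congr_fun (LinearMap.congr_fun this x) y
    simp only [LinearMap.comp_apply, LinearMap.neg_apply, LinearMap.compl₂_apply, Matrix.mulVecLin_apply] at h3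
    exact h3
  have hsym : ∀ x y, B₁ x y = B₁ y x := by
    have : B₁ = B₁.flip := by
      apply bilin_ext_eh
      intro s r
      rw [LinearMap.flip_apply, hval, hval]
      simp only [gAnti]
      by_cases h : s + r + 1 = n
      · rw [if_pos h, if_pos (by omega)]
        obtain ⟨m, hm⟩ := hodd
        have h5 : Even (s + r) := ⟨m, by omega⟩
        have h6 : Even s ↔ Even r := by
          rw [Nat.even_add] at h5
          exact h5
        by_cases h7 : Even r
        · rw [h7.neg_one_pow, (h6.2 h7).neg_one_pow]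
        · have h8 : ¬ Even s := fun h => h7 (h6.1 h)
          rw [(Nat.not_even_iff_odd.1 h7).neg_one_pow, (Nat.not_even_iff_odd.1 h8).neg_one_pow]
      · rw [if_neg h, if_neg (by omega)]
    intro x y
    exact LinearMap.congr_fun (LinearMap.congr_fun this x) y
  have hsep : ∀ y, (∀ x, B₁ x y = 0) → y = 0 := by
    intro y hy
    funext a
    have h3 := hy (eh F n (n - 1 - a))
    have h4 : B₁.flip y = ∑ r : Fin n, y r • B₁.flip (eh F n r) := by
      have h5 : y = ∑ r : Fin n, y r • eh F n r := by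
        funext b
        simp only [Finset.sum_apply, Pi.smul_apply, eh, smul_eq_mul]
        rw [Finset.sum_eq_single b]
        · simp
        · intro c _ hc
          have : (b : ℕ) ≠ c := fun h => hc (Fin.ext h.symm)
          simp [this]
        · simp
      nth_rewrite 1 [h5]
      rw [map_sum]
      simp only [map_smul]
    have h5 := LinearMap.congr_fun h4 (eh F n (n - 1 - a))
    rw [LinearMap.flip_apply, h3, LinearMap.sum_apply] at h5
    simp only [LinearMap.smul_apply, LinearMap.flip_apply, hval, smul_eq_mul] at h5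
    rw [Finset.sum_eq_single a] at h5
    · simp only [gAnti] at h5
      have h6 := a.2
      rw [if_pos (by omega)] at h5
      have h7 : ((-1 : F) ^ (a : ℕ)) ≠ 0 := pow_ne_zero _ (neg_ne_zero.2 one_ne_zero)
      exact (mul_eq_zero.1 h5.symm).resolve_right h7
    · intro c _ hc
      have h8 : n - 1 - (a : ℕ) + c + 1 ≠ n := by
        have h6 := a.2
        have h7 := c.2
        intro h9
        apply hc
        apply Fin.ext
        omega
      simp only [gAnti]
      rw [if_neg h8, mul_zero]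
    · simp
  -- the Cayley transform
  set D : Matrix (Fin n) (Fin n) F := (2 : F) • 1 - NB F n with hD
  set P : Matrix (Fin n) (Fin n) F := (2 : F) • 1 + NB F n with hP
  have hDunit : IsUnit D := by
    have h3 : D = algebraMap F (Matrix (Fin n) (Fin n) F) 2 + (- NB F n) := by
      rw [hD, Algebra.algebraMap_eq_smul_one, sub_eq_add_neg]
    rw [h3]
    have hu : IsUnit (algebraMap F (Matrix (Fin n) (Fin n) F) 2) :=
      (isUnit_iff_ne_zero.2 h2).map _
    refine IsNilpotent.isUnit_add_left_of_commute ?_ hu ?_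
    · exact ⟨n, by rw [neg_pow, NB_pow_self, mul_zero]⟩
    · exact (Algebra.commutes _ _).symm
  obtain ⟨uD, huD⟩ := hDunit
  set Di : Matrix (Fin n) (Fin n) F := ((uD⁻¹ : (Matrix (Fin n) (Fin n) F)ˣ) : Matrix (Fin n) (Fin n) F) with hDi
  have hDDi : D * Di = 1 := by rw [← huD]; exact uD.mul_inv
  have hDiD : Di * D = 1 := by rw [← huD]; exact uD.inv_mul
  have hcD : Commute (NB F n) D := by
    rw [hD]
    exact (Commute.smul_right (Commute.one_right _) _).sub_right (Commute.refl _)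
  have hcDi : Commute (NB F n) Di := by
    show NB F n * Di = Di * NB F n
    have h3 : Di * (NB F n * D) * Di = Di * (D * NB F n) * Di := by rw [hcD.eq]
    rw [mul_assoc, mul_assoc, hDDi, mul_one, ← mul_assoc, hDiD, one_mul] at h3
    exact h3.symm
  set A : Matrix (Fin n) (Fin n) F := P * Di with hA
  have hA1 : A - 1 = ((2 : F) • NB F n) * Di := by
    have h3 : (1 : Matrix (Fin n) (Fin n) F) = D * Di := hDDi.symm
    rw [hA]
    nth_rewrite 1 [h3]
    rw [← sub_mul, hP, hD]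
    congr 1
    rw [two_smul, two_smul]
    abel
  have hkey0 : ∀ (N : Matrix (Fin n) (Fin n) F) (_ : ∀ x y, B₁ (N *ᵥ x) y = - B₁ x (N *ᵥ y)) (x y : Fin n → F),
      B₁ (((2 : F) • (1 : Matrix (Fin n) (Fin n) F) + N) *ᵥ x) (((2 : F) • (1 : Matrix (Fin n) (Fin n) F) + N) *ᵥ y)
        = B₁ (((2 : F) • (1 : Matrix (Fin n) (Fin n) F) - N) *ᵥ x) (((2 : F) • (1 : Matrix (Fin n) (Fin n) F) - N) *ᵥ y) := by
    intro N hN x y
    simp only [Matrix.add_mulVec, Matrix.sub_mulVec, Matrix.smul_mulVec, Matrix.one_mulVec, map_add, map_sub,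
      map_smul, LinearMap.add_apply, LinearMap.sub_apply, LinearMap.smul_apply, smul_eq_mul]
    rw [hN x y]
    ring
  have hkey : ∀ x y, B₁ (P *ᵥ x) (P *ᵥ y) = B₁ (D *ᵥ x) (D *ᵥ y) := hkey0 (NB F n) hanti
  have hinvA : ∀ x y, B₁ (A *ᵥ x) (A *ᵥ y) = B₁ x y := by
    intro u v
    rw [hA, ← Matrix.mulVec_mulVec, ← Matrix.mulVec_mulVec, hkey, Matrix.mulVec_mulVec, Matrix.mulVec_mulVec,
      hDDi, Matrix.one_mulVec, Matrix.one_mulVec]
  have hA1pow : (A - 1) ^ n = 0 := by
    have hc : Commute ((2 : F) • NB F n) Di := Commute.smul_left hcDi _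
    rw [hA1, hc.mul_pow, smul_pow, NB_pow_self, smul_zero, zero_mul]
  have hlin : A.mulVecLin - LinearMap.id = (A - 1).mulVecLin := by
    ext x a
    simp [Matrix.sub_mulVec]
  obtain ⟨g, L, hg, hgL⟩ := JF_of_model (F := F) hn (W := Fin n → F) (by simp) B₁ A.mulVecLin hinvA
    (by rw [hlin, ← Cfsg.Agent.Lib.RegUnip.mulVecLin_pow_eq, hA1pow]; ext; simp)
    (by
      apply finrank_ker_le_one_of _ (eh F n (n - 1))
      intro x hx
      rw [hlin, Matrix.mulVecLin_apply, hA1, ← Matrix.mulVec_mulVec, Matrix.smul_mulVec, smul_eq_zero] at hx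
      have h3 := hx.resolve_left h2
      obtain ⟨c, hc⟩ := NB_ker_line F hn (Di *ᵥ x) h3
      refine ⟨c * 2, ?_⟩
      have h4 : x = D *ᵥ (Di *ᵥ x) := by rw [Matrix.mulVec_mulVec, hDDi, Matrix.one_mulVec]
      rw [h4, hc, Matrix.mulVec_smul, hD, Matrix.sub_mulVec, Matrix.smul_mulVec, Matrix.one_mulVec,
        NB_mulVec_eh, eh_of_le F (by omega : n ≤ n - 1 + 1), sub_zero, smul_smul])
    hsep
  refine ⟨g, hg, ?_⟩
  intro s r
  rw [hgL, hgL, hsym]

/-- The hyperbolic alternating form. -/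
noncomputable def omegaHyp (F : Type*) [Field F] (a : ℕ) :
    ((Fin a → F) × (Fin a → F)) →ₗ[F] ((Fin a → F) × (Fin a → F)) →ₗ[F] F :=
  LinearMap.mk₂ F (fun w w' => w.2 ⬝ᵥ w'.1 - w.1 ⬝ᵥ w'.2)
    (by rintro ⟨x1, x2⟩ ⟨y1, y2⟩ ⟨z1, z2⟩; simp [add_dotProduct]; ring)
    (by rintro c ⟨x1, x2⟩ ⟨z1, z2⟩; simp [smul_dotProduct]; ring)
    (by rintro ⟨x1, x2⟩ ⟨y1, y2⟩ ⟨z1, z2⟩; simp [dotProduct_add]; ring)
    (by rintro c ⟨x1, x2⟩ ⟨z1, z2⟩; simp [dotProduct_smul]; ring)

theorem omegaHyp_apply (a : ℕ) (w w' : (Fin a → F) × (Fin a → F)) :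
    omegaHyp F a w w' = w.2 ⬝ᵥ w'.1 - w.1 ⬝ᵥ w'.2 := rfl

/-- Even blocks carry an alternating invariant form. -/
theorem exists_alt {a : ℕ} (ha : 1 ≤ a) (hn : n = a + a) :
    ∃ g : ℕ → ℕ → F, JF n g ∧ (∀ s, g s s = 0) ∧ ∀ s r, g r s = - g s r := by
  classical
  subst hn
  obtain ⟨Ji, hJi, hJi'⟩ := JB_inv F (n := a)
  have hYtX : (JB F a)ᵀ * Jiᵀ = 1 := by
    rw [← Matrix.transpose_mul, hJi', Matrix.transpose_one]
  have hXtY : (Jiᵀ)ᵀ * JB F a = 1 := by
    rw [Matrix.transpose_transpose, hJi']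
  let lst : Fin a := ⟨a - 1, by omega⟩
  let e : Fin a → F := eh F a (a - 1)
  have hdot : ∀ u : Fin a → F, u ⬝ᵥ e = u lst := by
    intro u
    have : e = Pi.single lst 1 := eh_single F lst
    rw [this]
    simp
  have hdot' : ∀ u : Fin a → F, e ⬝ᵥ u = u lst := by
    intro u
    rw [dotProduct_comm, hdot]
  let SS : (Fin a → F) →ₗ[F] (Fin a → F) := (LinearMap.proj lst : (Fin a → F) →ₗ[F] F).smulRight e
  let A : ((Fin a → F) × (Fin a → F)) →ₗ[F] ((Fin a → F) × (Fin a → F)) := LinearMap.prod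
    ((Jiᵀ).mulVecLin ∘ₗ (LinearMap.fst F _ _ + SS ∘ₗ LinearMap.snd F _ _))
    ((JB F a).mulVecLin ∘ₗ LinearMap.snd F _ _)
  have hA : ∀ w, A w = (Jiᵀ *ᵥ (w.1 + w.2 lst • e), JB F a *ᵥ w.2) := fun w => rfl
  have hinvA : ∀ x y, omegaHyp F a (A x) (A y) = omegaHyp F a x y := by
    intro w w'
    rw [omegaHyp_apply, omegaHyp_apply, hA, hA]
    simp only
    rw [mulVec_dot (JB F a), mulVec_dot (Jiᵀ), Matrix.mulVec_mulVec, Matrix.mulVec_mulVec, hYtX, hXtY,
      Matrix.one_mulVec, Matrix.one_mulVec, dotProduct_add, add_dotProduct, dotProduct_smul, smul_dotProduct,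
      hdot, hdot', smul_eq_mul, smul_eq_mul]
    ring
  set N₂ : ((Fin a → F) × (Fin a → F)) →ₗ[F] ((Fin a → F) × (Fin a → F)) := A - LinearMap.id with hN₂def
  have hN₂ : ∀ w, N₂ w = (Jiᵀ *ᵥ (w.1 + w.2 lst • e) - w.1, NB F a *ᵥ w.2) := by
    intro w
    rw [hN₂def, LinearMap.sub_apply, hA]
    simp only [LinearMap.id_apply, NB, Matrix.sub_mulVec, Matrix.one_mulVec]
    rfl
  have hi : ∀ (k : ℕ) w, ((N₂ ^ k) w).2 = NB F a ^ k *ᵥ w.2 := by
    intro k
    induction k with
    | zero => intro w; simp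
    | succ k ih =>
      intro w
      rw [pow_succ', Module.End.mul_apply, hN₂]
      simp only
      rw [ih, Matrix.mulVec_mulVec, pow_succ']
  have hii : ∀ (k : ℕ) w, w.2 = 0 → (N₂ ^ k) w = ((Jiᵀ - 1) ^ k *ᵥ w.1, 0) := by
    intro k
    induction k with
    | zero =>
      intro w hw
      rw [pow_zero, pow_zero, Module.End.one_apply, Matrix.one_mulVec]
      exact Prod.ext rfl hw
    | succ k ih =>
      intro w hw
      rw [pow_succ', Module.End.mul_apply, ih w hw, hN₂]
      simp only [Pi.zero_apply, zero_smul, add_zero, Matrix.mulVec_zero]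
      rw [pow_succ', ← Matrix.mulVec_mulVec, Matrix.sub_mulVec, Matrix.one_mulVec]
  have hnil : N₂ ^ (a + a) = 0 := by
    apply LinearMap.ext
    intro w
    rw [pow_add, Module.End.mul_apply]
    have h1 : ((N₂ ^ a) w).2 = 0 := by
      rw [hi, NB_pow_self, Matrix.zero_mulVec]
    rw [hii a _ h1, inv_sub_one_pow hJi hJi', Matrix.zero_mulVec]
    rfl
  have hker : finrank F (LinearMap.ker N₂) ≤ 1 := by
    apply finrank_ker_le_one_of _ (eh F a 0, (0 : Fin a → F))
    rintro ⟨p, q⟩ hw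
    rw [hN₂] at hw
    simp only [Prod.mk_eq_zero] at hw
    obtain ⟨h1, h2⟩ := hw
    obtain ⟨c, hc⟩ := NB_ker_line F ha q h2
    have h3 : Jiᵀ *ᵥ (p + q lst • e) = p := sub_eq_zero.1 h1
    have h4 : (JB F a)ᵀ *ᵥ p = p + q lst • e := by
      nth_rewrite 1 [← h3]
      rw [Matrix.mulVec_mulVec, hYtX, Matrix.one_mulVec]
    have h5 : (NB F a)ᵀ *ᵥ p = q lst • e := by
      simp only [NB, Matrix.transpose_sub, Matrix.transpose_one, Matrix.sub_mulVec, Matrix.one_mulVec, h4]
      abel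
    have h6 : q lst = 0 := by
      have h7 := congrFun h5 lst
      rw [NBt_mulVec_top F p (a - 1) (by omega) (by omega)] at h7
      have h8 : e lst = 1 := by simp [e, eh, lst]
      simp only [Pi.smul_apply, h8, smul_eq_mul, mul_one] at h7
      exact h7.symm
    have h7 : q = 0 := by
      rw [hc]
      have h8 : e lst = 1 := by simp [e, eh, lst]
      rw [hc] at h6
      simp only [Pi.smul_apply, smul_eq_mul] at h6
      have h9 : eh F a (a - 1) lst = 1 := h8
      rw [h9, mul_one] at h6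
      rw [h6, zero_smul]
    have h8 : (NB F a)ᵀ *ᵥ p = 0 := by rw [h5, h6, zero_smul]
    obtain ⟨c', hc'⟩ := NBt_ker_line F ha p h8
    exact ⟨c', Prod.ext hc' (by simp [h7])⟩
  have hsep : ∀ y, (∀ x, omegaHyp F a x y = 0) → y = 0 := by
    rintro ⟨p, q⟩ hy
    have h1 : q = 0 := by
      apply eq_zero_of_dot'
      intro u
      have := hy (-u, 0)
      rw [omegaHyp_apply] at this
      simp only [zero_dotProduct, sub_eq_zero, neg_dotProduct] at this
      rw [dotProduct_comm]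
      simpa using this
    have h2 : p = 0 := by
      apply eq_zero_of_dot
      intro u
      have := hy (0, u)
      rw [omegaHyp_apply] at this
      simpa using this
    rw [h1, h2]
    rfl
  obtain ⟨g, L, hg, hgL⟩ := JF_of_model (F := F) (by omega : 1 ≤ a + a) (W := (Fin a → F) × (Fin a → F))
    (by simp) (omegaHyp F a) A hinvA hnil hker hsep
  refine ⟨g, hg, ?_, ?_⟩
  · intro s
    rw [hgL, omegaHyp_apply, dotProduct_comm, sub_self]
  · intro s r
    rw [hgL, hgL, omegaHyp_apply, omegaHyp_apply, dotProduct_comm (L (eh F (a + a) r)).2,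
      dotProduct_comm (L (eh F (a + a) r)).1]
    ring

end Cfsg.Agent.Lib.JordanForm
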