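import Mathlib
import Cfsg.Agent.Lib.JordanForm.Basic
import Cfsg.Agent.Lib.JordanForm.Models

/-! Gluing invariant forms on Jordan blocks into a global invariant form. -/

set_option autoImplicit false

namespace Cfsg.Agent.Lib.JordanForm

open Matrix Finset Module

theorem exists_fpf (K : Type*) [Fintype K] (h : Even (Fintype.card K)) :
    ∃ σ : K → K, (∀ x, σ (σ x) = x) ∧ ∀ x, σ x ≠ x := by
  obtain ⟨a, ha⟩ := h
  let e : K ≃ Fin a ⊕ Fin a := (Fintype.equivFinOfCardEq ha).trans finSumFinEquiv.symm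
  refine ⟨fun x => e.symm (Sum.swap (e x)), ?_, ?_⟩
  · intro x
    simp
  · intro x hx
    have h1 := congrArg e hx
    rw [Equiv.apply_symm_apply] at h1
    cases hy : e x with
    | inl y => rw [hy] at h1; simp at h1
    | inr y => rw [hy] at h1; simp at h1

theorem exists_tau {t : ℕ} (d : Fin t → ℕ) (P : ℕ → Prop)
    (hP : ∀ j, P j → Even (univ.filter (fun k => d k = j)).card) :
    ∃ τ : Fin t → Fin t, (∀ k, τ (τ k) = k) ∧ (∀ k, d (τ k) = d k) ∧ ∀ k, τ k = k ↔ ¬ P (d k) := by
  classical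
  have hex : ∀ j, P j → ∃ σ : {k // d k = j} → {k // d k = j}, (∀ x, σ (σ x) = x) ∧ ∀ x, σ x ≠ x := by
    intro j hj
    apply exists_fpf
    rw [Fintype.card_subtype]
    exact hP j hj
  choose σ hσ1 hσ2 using hex
  let τ : Fin t → Fin t := fun k => if h : P (d k) then (σ (d k) h ⟨k, rfl⟩).1 else k
  have hval : ∀ (k : Fin t) (j : ℕ) (hk : d k = j) (h : P j), τ k = (σ j h ⟨k, hk⟩).1 := by
    intro k j hk h
    subst hk
    simp only [τ]
    rw [dif_pos h]
  refine ⟨τ, ?_, ?_, ?_⟩
  · intro k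
    by_cases h : P (d k)
    · have h1 := hval k (d k) rfl h
      set w := σ (d k) h ⟨k, rfl⟩ with hw
      rw [h1, hval w.1 (d k) w.2 h]
      have h2 : (⟨w.1, w.2⟩ : {x // d x = d k}) = w := rfl
      rw [h2, hw, hσ1]
    · have h1 : τ k = k := by simp only [τ]; rw [dif_neg h]
      rw [h1, h1]
  · intro k
    by_cases h : P (d k)
    · rw [hval k (d k) rfl h]
      exact (σ (d k) h ⟨k, rfl⟩).2
    · have h1 : τ k = k := by simp only [τ]; rw [dif_neg h]
      rw [h1]
  · intro k
    by_cases h : P (d k)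
    · simp only [h, not_true_eq_false, iff_false]
      rw [hval k (d k) rfl h]
      intro h3
      exact hσ2 (d k) h ⟨k, rfl⟩ (Subtype.ext h3)
    · simp only [h, not_false_eq_true, iff_true]
      simp only [τ]
      rw [dif_neg h]

variable {F : Type*} [Field F] {t : ℕ} {d : Fin t → ℕ}

theorem bilin_ext_ee {W : Type*} [AddCommGroup W] [Module F W]
    (f f' : (Ix d → F) →ₗ[F] (Ix d → F) →ₗ[F] W)
    (h : ∀ k s l r, f (ee F d k s) (ee F d l r) = f' (ee F d k s) (ee F d l r)) : f = f' := by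
  apply linearMap_ext_ee
  intro k s
  apply linearMap_ext_ee
  intro l r
  exact h k s l r

theorem alt_of_ee (B : (Ix d → F) →ₗ[F] (Ix d → F) →ₗ[F] F)
    (h1 : ∀ x y, B y x = - B x y)
    (h2 : ∀ k s, B (ee F d k s) (ee F d k s) = 0) (x : Ix d → F) : B x x = 0 := by
  classical
  have hx : x = ∑ a : Ix d, x a • ee F d a.1 a.2 := by
    funext b
    simp only [Finset.sum_apply, Pi.smul_apply, smul_eq_mul]
    rw [Finset.sum_eq_single b]
    · rw [ee_single]; simp
    · intro c _ hc
      rw [ee_single]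
      simp [Pi.single_apply, Ne.symm hc]
    · simp
  have key : ∀ s : Finset (Ix d), B (∑ a ∈ s, x a • ee F d a.1 a.2) (∑ a ∈ s, x a • ee F d a.1 a.2) = 0 := by
    intro s
    induction s using Finset.induction_on with
    | empty => simp
    | insert a s ha ih =>
      rw [Finset.sum_insert ha]
      simp only [map_add, LinearMap.add_apply, ih, map_smul, LinearMap.smul_apply, h2, smul_zero, add_zero]
      rw [h1 (ee F d a.1 a.2) (∑ a ∈ s, x a • ee F d a.1 a.2)]
      simp
  rw [hx]
  exact key _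

/-- The main gluing construction. -/
theorem exists_global (ε : F) (hε : ε * ε = 1) (P : ℕ → Prop) (self : ℕ → ℕ → ℕ → F)
    (hself : ∀ n, 1 ≤ n → ¬ P n → JF n (self n))
    (hsym : ∀ n, 1 ≤ n → ¬ P n → ∀ s r, self n r s = ε * self n s r)
    (hd : ∀ k, 1 ≤ d k) (hmult : ∀ j, P j → Even (univ.filter (fun k => d k = j)).card) :
    ∃ B : (Ix d → F) →ₗ[F] (Ix d → F) →ₗ[F] F,
      (∀ x y, B (JJ F d *ᵥ x) (JJ F d *ᵥ y) = B x y) ∧
      (∀ y, (∀ x, B x y = 0) → y = 0) ∧
      (∀ x y, B y x = ε * B x y) ∧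
      (ε = -1 → (∀ n, 1 ≤ n → ¬ P n → ∀ s, self n s s = 0) → ∀ x, B x x = 0) := by
  classical
  obtain ⟨τ, hτ1, hτ2, hτ3⟩ := exists_tau d P hmult
  have hεne : ε ≠ 0 := by
    rintro rfl
    simp at hε
  have hexp : ∀ n : ℕ, ∃ g : ℕ → ℕ → F, 1 ≤ n → (JF n g ∧ JFL n g) := by
    intro n
    by_cases hn : 1 ≤ n
    · obtain ⟨g, h1, h2⟩ := exists_pair (F := F) hn
      exact ⟨g, fun _ => ⟨h1, h2⟩⟩
    · exact ⟨fun _ _ => 0, fun h => absurd h hn⟩
  choose gp hgp using hexp
  let g : Fin t → ℕ → ℕ → F := fun k =>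
    if τ k = k then self (d k) else if k < τ k then gp (d k) else fun s r => ε * gp (d k) r s
  have hg : ∀ k, JF (d k) (g k) := by
    intro k
    simp only [g]
    by_cases h1 : τ k = k
    · rw [if_pos h1]
      exact hself _ (hd k) ((hτ3 k).1 h1)
    · rw [if_neg h1]
      by_cases h2 : k < τ k
      · rw [if_pos h2]
        exact (hgp _ (hd k)).1
      · rw [if_neg h2]
        exact (hgp _ (hd k)).1.neg_flip hεne (hgp _ (hd k)).2
  have hgsym : ∀ k s r, g (τ k) r s = ε * g k s r := by
    intro k s r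
    by_cases h1 : τ k = k
    · have gk : g k = self (d k) := by
        simp only [g]
        rw [if_pos h1]
      rw [h1, gk, hsym _ (hd k) ((hτ3 k).1 h1)]
    · have h1' : τ (τ k) ≠ τ k := by rw [hτ1]; exact fun h => h1 h.symm
      have hdd := hτ2 k
      by_cases h2 : k < τ k
      · have h3 : ¬ τ k < τ (τ k) := by rw [hτ1]; exact not_lt.2 h2.le
        simp only [g]
        rw [if_neg h1, if_pos h2, if_neg h1', if_neg h3, hdd]
      · have h3 : τ k < τ (τ k) := by
          rw [hτ1]
          exact lt_of_le_of_ne (not_lt.1 h2) h1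
        simp only [g]
        rw [if_neg h1, if_neg h2, if_neg h1', if_pos h3, hdd, ← mul_assoc, hε, one_mul]
  let S : Matrix (Ix d) (Ix d) F := Matrix.of fun a b => if b.1 = τ a.1 then g a.1 a.2 b.2 else 0
  let B : (Ix d → F) →ₗ[F] (Ix d → F) →ₗ[F] F := Matrix.toLinearMap₂' F S
  have hval : ∀ k s l r, B (ee F d k s) (ee F d l r) = if l = τ k then g k s r else 0 := by
    intro k s l r
    by_cases hs : s < d k
    · by_cases hr : r < d l
      · rw [ee_of_lt F hs, ee_of_lt F hr, Matrix.toLinearMap₂'_apply']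
        simp [S, Matrix.mulVec_single_one]
      · rw [ee_of_le F (not_lt.1 hr), map_zero]
        split_ifs with h
        · subst h
          rw [(hg k).out_r s r (by rw [← hτ2 k]; omega)]
        · rfl
    · rw [ee_of_le F (not_lt.1 hs), map_zero, LinearMap.zero_apply]
      split_ifs
      · rw [(hg k).out_l s r (by omega)]
      · rfl
  have hinv : ∀ x y, B (JJ F d *ᵥ x) (JJ F d *ᵥ y) = B x y := by
    have h1 : B.compl₁₂ (JJ F d).mulVecLin (JJ F d).mulVecLin = B := by
      apply bilin_ext_ee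
      intro k s l r
      simp only [LinearMap.compl₁₂_apply, Matrix.mulVecLin_apply]
      rw [JJ_mulVec_ee, JJ_mulVec_ee]
      simp only [map_add, LinearMap.add_apply, hval]
      split_ifs
      · have := (hg k).rel s r
        linear_combination this
      · simp
    intro x y
    have := LinearMap.congr_fun (LinearMap.congr_fun h1 x) y
    simpa only [LinearMap.compl₁₂_apply, Matrix.mulVecLin_apply] using this
  have hsymB : ∀ x y, B y x = ε * B x y := by
    have h1 : B.flip = ε • B := by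
      apply bilin_ext_ee
      intro k s l r
      rw [LinearMap.flip_apply, LinearMap.smul_apply, LinearMap.smul_apply, hval, hval, smul_eq_mul]
      by_cases h : l = τ k
      · have h2 : k = τ l := by rw [h, hτ1]
        rw [if_pos h, if_pos h2, h]
        exact hgsym k s r
      · have h2 : ¬ k = τ l := fun h3 => h (by rw [h3, hτ1])
        rw [if_neg h, if_neg h2, mul_zero]
    intro x y
    have := LinearMap.congr_fun (LinearMap.congr_fun h1 x) y
    simpa only [LinearMap.flip_apply, LinearMap.smul_apply, smul_eq_mul] using this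
  refine ⟨B, hinv, ?_, hsymB, ?_⟩
  · intro y hy
    have key : ∀ (k l : Fin t) (hl : τ k = l) (r : Fin (d l)), y ⟨l, r⟩ = 0 := by
      intro k l hl r
      subst hl
      let y' : ℕ → F := fun r => if h : r < d (τ k) then y ⟨τ k, ⟨r, h⟩⟩ else 0
      have hy' : ∀ r : Fin (d (τ k)), y' r = y ⟨τ k, r⟩ := by
        intro r
        simp only [y']
        rw [dif_pos r.2]
      have h0 := (hg k).nd_r y' ?_ r (by rw [← hτ2 k]; exact r.2)
      · rw [← h0, hy']
      · intro s hs
        have h1 := hy (ee F d k s)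
        rw [ee_of_lt F hs, Matrix.toLinearMap₂'_apply'] at h1
        rw [hτ2 k |>.symm, ← Fin.sum_univ_eq_sum_range (fun r => g k s r * y' r) (d (τ k))]
        simp only [single_dotProduct, one_mul] at h1
        rw [Matrix.mulVec, dotProduct, Fintype.sum_sigma, Finset.sum_eq_single (τ k)] at h1
        · rw [← h1]
          apply Finset.sum_congr rfl
          intro r _
          rw [hy']
          simp [S]
        · intro l _ hl
          apply Finset.sum_eq_zero
          intro r _
          simp [S, hl]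
        · simp
    funext a
    obtain ⟨l, r⟩ := a
    exact key (τ l) l (hτ1 l) r
  · intro hεm hz x
    apply alt_of_ee B
    · intro u v
      rw [hsymB u v, hεm]
      ring
    · intro k s
      rw [hval]
      split_ifs with h
      · have h1 : τ k = k := h.symm
        simp only [g]
        rw [if_pos h1]
        exact hz _ (hd k) ((hτ3 k).1 h1) s
      · rfl

/-- Alternating invariant forms exist when odd sizes have even multiplicity. -/
theorem exists_form_alt (hd : ∀ k, 1 ≤ d k) (hmult : ∀ j, Odd j → Even (univ.filter (fun k => d k = j)).card) :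
    ∃ B : (Ix d → F) →ₗ[F] (Ix d → F) →ₗ[F] F,
      (∀ x y, B (JJ F d *ᵥ x) (JJ F d *ᵥ y) = B x y) ∧
      (∀ y, (∀ x, B x y = 0) → y = 0) ∧ (∀ x, B x x = 0) := by
  have hex : ∀ n : ℕ, ∃ g : ℕ → ℕ → F, 1 ≤ n → ¬ Odd n →
      (JF n g ∧ (∀ s, g s s = 0) ∧ ∀ s r, g r s = - g s r) := by
    intro n
    by_cases hn : 1 ≤ n ∧ ¬ Odd n
    · obtain ⟨a, ha⟩ := Nat.not_odd_iff_even.1 hn.2
      obtain ⟨g, h1, h2⟩ := exists_alt (F := F) (n := n) (a := a) (by omega) ha
      exact ⟨g, fun _ _ => ⟨h1, h2⟩⟩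
    · exact ⟨fun _ _ => 0, fun h h' => absurd ⟨h, h'⟩ hn⟩
  choose self hself using hex
  obtain ⟨B, h1, h2, -, h4⟩ := exists_global (F := F) (d := d) (-1) (by ring) Odd self
    (fun n h h' => (hself n h h').1)
    (fun n h h' s r => by rw [(hself n h h').2.2 s r]; ring) hd hmult
  exact ⟨B, h1, h2, h4 rfl (fun n h h' s => (hself n h h').2.1 s)⟩

/-- Symmetric invariant forms exist when even sizes have even multiplicity. -/
theorem exists_form_sym (h2 : (2 : F) ≠ 0) (hd : ∀ k, 1 ≤ d k)
    (hmult : ∀ j, Even j → 0 < j → Even (univ.filter (fun k => d k = j)).card) :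
    ∃ B : (Ix d → F) →ₗ[F] (Ix d → F) →ₗ[F] F,
      (∀ x y, B (JJ F d *ᵥ x) (JJ F d *ᵥ y) = B x y) ∧
      (∀ y, (∀ x, B x y = 0) → y = 0) ∧ (∀ x y, B y x = B x y) := by
  have hex : ∀ n : ℕ, ∃ g : ℕ → ℕ → F, 1 ≤ n → ¬ (Even n ∧ 0 < n) →
      (JF n g ∧ ∀ s r, g r s = g s r) := by
    intro n
    by_cases hn : 1 ≤ n ∧ ¬ (Even n ∧ 0 < n)
    · have h3 : Odd n := by
        rw [← Nat.not_even_iff_odd]
        exact fun h => hn.2 ⟨h, by omega⟩
      obtain ⟨g, h4, h5⟩ := exists_sym (F := F) h2 hn.1 h3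
      exact ⟨g, fun _ _ => ⟨h4, h5⟩⟩
    · exact ⟨fun _ _ => 0, fun h h' => absurd ⟨h, h'⟩ hn⟩
  choose self hself using hex
  obtain ⟨B, h1, h3, h4, -⟩ := exists_global (F := F) (d := d) 1 (by ring) (fun j => Even j ∧ 0 < j) self
    (fun n h h' => (hself n h h').1)
    (fun n h h' s r => by rw [(hself n h h').2 s r]; ring) hd (fun j hj => hmult j hj.1 hj.2)
  refine ⟨B, h1, h3, fun x y => ?_⟩
  rw [h4 x y, one_mul]

/-- Representation of functionals from right separation. -/
theorem rep_of_sep {V : Type*} [AddCommGroup V] [Module F V] [FiniteDimensional F V]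
    (B : V →ₗ[F] V →ₗ[F] F) (hsep : ∀ y, (∀ x, B x y = 0) → y = 0) (φ : V →ₗ[F] F) :
    ∃ w, ∀ x, φ x = B x w := by
  have hinj : Function.Injective B.flip := by
    rw [injective_iff_map_eq_zero]
    intro y hy
    apply hsep
    intro x
    have := LinearMap.congr_fun hy x
    simpa using this
  have hsurj : Function.Surjective B.flip := by
    have h1 : finrank F V = finrank F (V →ₗ[F] F) := (Subspace.dual_finrank_eq).symm
    exact (LinearMap.injective_iff_surjective_of_finrank_eq_finrank h1).1 hinj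
  obtain ⟨w, hw⟩ := hsurj φ
  refine ⟨w, fun x => ?_⟩
  rw [← hw, LinearMap.flip_apply]

end Cfsg.Agent.Lib.JordanForm
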