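import Mathlib
import Cfsg.Agent.Lib.JordanForm.GUNorm
import Cfsg.Agent.Lib.JordanForm.GUBlock
import Cfsg.Agent.Lib.JordanForm.Global

/-! The order of the isometry group in the commutant of a unipotent element. -/

set_option autoImplicit false
set_option linter.unusedSectionVars false

namespace Cfsg.Agent.Lib.JordanForm

open Matrix Finset Module Cfsg.Agent.Lib.Classical Cfsg.Agent.Lib.NormH90
open scoped MatrixGroups

variable {K : Type*} [Field K] [Fintype K] {q t : ℕ} (hK : Fintype.card K = q ^ 2) (d : Fin t → ℕ)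

/-- An anti-involution of the matrix algebra together with the form it comes from. -/
structure TauData where
  τ : Matrix (Ix d) (Ix d) K → Matrix (Ix d) (Ix d) K
  anti : IsAnti τ
  invol : ∀ X, τ (τ X) = X
  smul : ∀ (a : K) X, τ (a • X) = a ^ q • τ X
  hJ : τ (JJ K d) * JJ K d = 1
  B : (Ix d → K) →ₗ[K] (Ix d → K) →ₗ[K] K
  hadj : ∀ X x y, B (X *ᵥ x) y = B x (((τ X).map (frobQ hK)) *ᵥ y)
  hsep : ∀ y, (∀ x, B x y = 0) → y = 0
  hherm : ∀ k r l s, B (ee K d k r) (ee K d l s) = (B (ee K d l s) (ee K d k r)) ^ q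

variable {hK d}
variable (D : TauData hK d)

theorem JJ_map : (JJ K d).map (frobQ hK) = JJ K d := by
  ext a b
  rw [Matrix.map_apply, JJ_apply]
  split_ifs <;> simp

theorem NN_map : (NN K d).map (frobQ hK) = NN K d := by
  ext a b
  rw [Matrix.map_apply, NN_apply]
  split_ifs <;> simp

theorem map_map_frob {κ : Type*} (X : Matrix κ κ K) : (X.map (frobQ hK)).map (frobQ hK) = X := by
  ext a b
  simp only [Matrix.map_apply]
  exact frobQ_frobQ hK _

namespace TauData

theorem hJ' : JJ K d * D.τ (JJ K d) = 1 := mul_eq_one_comm.1 D.hJ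

theorem Ji_map : (D.τ (JJ K d)).map (frobQ hK) = D.τ (JJ K d) := by
  have h1 : (D.τ (JJ K d)).map (frobQ hK) * JJ K d = 1 := by
    have := congrArg (fun M => M.map (frobQ hK)) D.hJ
    simp only [Matrix.map_mul, JJ_map] at this
    rw [this, Matrix.map_one _ (map_zero _) (map_one _)]
  calc (D.τ (JJ K d)).map (frobQ hK) = (D.τ (JJ K d)).map (frobQ hK) * (JJ K d * D.τ (JJ K d)) := by
        rw [D.hJ', mul_one]
    _ = ((D.τ (JJ K d)).map (frobQ hK) * JJ K d) * D.τ (JJ K d) := by noncomm_ring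
    _ = D.τ (JJ K d) := by rw [h1, one_mul]

theorem hinv (x y : Ix d → K) : D.B (JJ K d *ᵥ x) (JJ K d *ᵥ y) = D.B x y := by
  rw [D.hadj, Ji_map, Matrix.mulVec_mulVec, D.hJ, Matrix.one_mulVec]

theorem hrep (φ : (Ix d → K) →ₗ[K] K) : ∃ w, ∀ x, φ x = D.B x w :=
  rep_of_sep D.B D.hsep φ

theorem comm_iff (X : Matrix (Ix d) (Ix d) K) : X * NN K d = NN K d * X ↔ X * JJ K d = JJ K d * X := by
  have h : NN K d = JJ K d - 1 := rfl
  rw [h, mul_sub, sub_mul, mul_one, one_mul]
  exact sub_left_inj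

theorem τ_comm {X : Matrix (Ix d) (Ix d) K} (hX : X * JJ K d = JJ K d * X) :
    D.τ X * JJ K d = JJ K d * D.τ X := by
  have h1 : D.τ (JJ K d) * D.τ X = D.τ X * D.τ (JJ K d) := by
    rw [← D.anti.mul, ← D.anti.mul, hX]
  calc D.τ X * JJ K d = (JJ K d * D.τ (JJ K d)) * (D.τ X * JJ K d) := by rw [D.hJ', one_mul]
    _ = JJ K d * (D.τ (JJ K d) * D.τ X) * JJ K d := by noncomm_ring
    _ = JJ K d * D.τ X * (D.τ (JJ K d) * JJ K d) := by rw [h1]; noncomm_ring
    _ = JJ K d * D.τ X := by rw [D.hJ, mul_one]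

theorem ρ_comm {X : Matrix (Ix d) (Ix d) K} (hX : X * NN K d = NN K d * X) :
    (D.τ X).map (frobQ hK) * NN K d = NN K d * (D.τ X).map (frobQ hK) := by
  have h1 : D.τ X * NN K d = NN K d * D.τ X := (comm_iff _).2 (D.τ_comm ((comm_iff _).1 hX))
  have h2 := congrArg (fun M => M.map (frobQ hK)) h1
  simp only [Matrix.map_mul, NN_map] at h2
  exact h2

theorem block_map_frob (hd : ∀ k, 1 ≤ d k) (X : Matrix (Ix d) (Ix d) K) (i : ℕ) :
    (blockOf hd (X.map (frobQ hK)) i).map (frobQ hK) = blockOf hd X i := by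
  ext l k
  simp only [Matrix.map_apply, blockOf, Matrix.of_apply]
  exact frobQ_frobQ hK _

/-- The hermitian twist at size `i`. -/
theorem exists_G (hd : ∀ k, 1 ≤ d k) (i : ℕ) : ∃ G : Matrix (KK d i) (KK d i) K, IsUnit G ∧ dag hK G = G ∧
    ∀ X : Matrix (Ix d) (Ix d) K, X * NN K d = NN K d * X → dag hK (blockOf hd X i) * G = G * blockOf hd (D.τ X) i := by
  classical
  obtain ⟨s, hs0, hs⟩ : ∃ s : K, s ≠ 0 ∧ s ^ q * (-1) ^ (i - 1) = s := by
    rcases neg_one_pow_eq_or K (i - 1) with h | h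
    · refine ⟨1, one_ne_zero, ?_⟩
      rw [h]
      simp
    · obtain ⟨e, δ, hδ0, hδ, hδq⟩ := exists_delta hK
      refine ⟨δ, hδ0, ?_⟩
      rw [h, hδq]
      ring
  set g := gg D.B i with hg
  have hgu : IsUnit g := gg_isUnit D.B D.hinv D.hJ' D.hJ hd D.hrep D.hsep i
  have hsym : ∀ l k, g l k = (-1) ^ (i - 1) * (g k l) ^ q :=
    gg_symm D.B D.hinv D.hJ' D.hJ hd D.hherm
  set G₀ := g.map (frobQ hK) with hG₀
  have hG₀u : IsUnit G₀ := by
    obtain ⟨u, hu⟩ := hgu
    refine IsUnit.of_mul_eq_one (((u⁻¹ : (Matrix (KK d i) (KK d i) K)ˣ) : Matrix (KK d i) (KK d i) K).map (frobQ hK)) ?_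
    rw [hG₀, ← Matrix.map_mul, ← hu, Units.mul_inv, Matrix.map_one _ (map_zero _) (map_one _)]
  refine ⟨s • G₀, ?_, ?_, ?_⟩
  · have h1 : IsUnit (s • (1 : Matrix (KK d i) (KK d i) K)) := by
      refine IsUnit.of_mul_eq_one (s⁻¹ • (1 : Matrix (KK d i) (KK d i) K)) ?_
      rw [smul_mul_smul_comm, mul_inv_cancel₀ hs0, one_mul, one_smul]
    have h2 : s • G₀ = (s • (1 : Matrix (KK d i) (KK d i) K)) * G₀ := by
      rw [Matrix.smul_mul, one_mul]
    rw [h2]
    exact h1.mul hG₀u
  · ext l k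
    rw [dag_apply]
    simp only [Matrix.smul_apply, smul_eq_mul, hG₀, Matrix.map_apply, frobQ_apply, mul_pow, pow_q_pow_q hK]
    rw [hsym k l, ← mul_assoc, hs]
  · intro X hX
    have h1 := block_adj D.B D.hinv D.hJ' D.hJ hd hX (D.ρ_comm hX) (D.hadj X) i
    have h2 := congrArg (fun M => M.map (frobQ hK)) h1
    simp only [Matrix.map_mul] at h2
    rw [block_map_frob] at h2
    have h3 : ((blockOf hd X i)ᵀ).map (frobQ hK) = dag hK (blockOf hd X i) := by
      ext l k
      rfl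
    rw [h3] at h2
    rw [Matrix.mul_smul, Matrix.smul_mul, hG₀, hg, h2]

/-- The commutant group. -/
def cGroup (d : Fin t → ℕ) (K : Type*) [Field K] : Subgroup (GL (Ix d) K) where
  carrier := {g | (g : Matrix (Ix d) (Ix d) K) * JJ K d = JJ K d * (g : Matrix (Ix d) (Ix d) K)}
  mul_mem' := by
    intro a b ha hb
    simp only [Set.mem_ofPred_eq] at ha hb ⊢
    rw [Units.val_mul, mul_assoc, hb, ← mul_assoc, ha, mul_assoc]
  one_mem' := by
    simp
  inv_mem' := by
    intro a ha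
    simp only [Set.mem_ofPred_eq] at ha ⊢
    calc ((a⁻¹ : GL (Ix d) K) : Matrix (Ix d) (Ix d) K) * JJ K d
        = ((a⁻¹ : GL (Ix d) K) : Matrix (Ix d) (Ix d) K) * JJ K d * ((a : Matrix (Ix d) (Ix d) K) * ((a⁻¹ : GL (Ix d) K) : Matrix (Ix d) (Ix d) K)) := by
          rw [Units.mul_inv, mul_one]
      _ = ((a⁻¹ : GL (Ix d) K) : Matrix (Ix d) (Ix d) K) * (JJ K d * a) * ((a⁻¹ : GL (Ix d) K) : Matrix (Ix d) (Ix d) K) := by noncomm_ring
      _ = ((a⁻¹ : GL (Ix d) K) : Matrix (Ix d) (Ix d) K) * (a * JJ K d) * ((a⁻¹ : GL (Ix d) K) : Matrix (Ix d) (Ix d) K) := by rw [ha]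
      _ = (((a⁻¹ : GL (Ix d) K) : Matrix (Ix d) (Ix d) K) * a) * (JJ K d * ((a⁻¹ : GL (Ix d) K) : Matrix (Ix d) (Ix d) K)) := by noncomm_ring
      _ = _ := by rw [Units.inv_mul, one_mul]

/-- The involution on the commutant group. -/
noncomputable def sig (g : cGroup d K) : cGroup d K :=
  ⟨⟨D.τ g.1.val, D.τ (g.1⁻¹).val, by rw [← D.anti.mul, Units.inv_mul, D.anti.one], by
    rw [← D.anti.mul, Units.mul_inv, D.anti.one]⟩, D.τ_comm g.2⟩

theorem sig_val (g : cGroup d K) : (D.sig g).1.val = D.τ g.1.val := rfl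

/-- The norm is surjective on the commutant. -/
theorem norm_surj_C (z : cGroup d K) (hz : D.sig z = z) : ∃ x, D.sig x * x = z := by
  classical
  obtain ⟨a, ha⟩ := exists_ne_frob hK
  let sc : K →+* Matrix (Ix d) (Ix d) K := Matrix.scalar (Ix d)
  have hτs : ∀ b : K, D.τ (sc b) = sc (b ^ q) := by
    intro b
    have h1 : sc b = b • (1 : Matrix (Ix d) (Ix d) K) := by
      ext i j
      simp [sc, Matrix.scalar_apply, Matrix.one_apply, Matrix.diagonal_apply]
    have h2 : sc (b ^ q) = (b ^ q) • (1 : Matrix (Ix d) (Ix d) K) := by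
      ext i j
      simp [sc, Matrix.scalar_apply, Matrix.one_apply, Matrix.diagonal_apply]
    rw [h1, h2, D.smul, D.anti.one]
  have hsc : ∀ (b : K) (X : Matrix (Ix d) (Ix d) K), sc b * X = X * sc b := by
    intro b X
    ext i j
    simp [sc, Matrix.scalar_apply, mul_comm]
  set Z : Matrix (Ix d) (Ix d) K := z.1.val with hZ
  have hZfix : D.τ Z = Z := by
    rw [hZ, ← sig_val, hz]
  let S : Subring (Matrix (Ix d) (Ix d) K) := Subring.closure ({Z} ∪ Set.range sc)
  have hZS : Z ∈ S := Subring.subset_closure (Or.inl rfl)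
  have hscS : ∀ b, sc b ∈ S := fun b => Subring.subset_closure (Or.inr ⟨b, rfl⟩)
  have hc : ∀ x ∈ S, ∀ y ∈ S, x * y = y * x := by
    apply comm_closure
    rintro x (rfl | ⟨b, rfl⟩) y (rfl | ⟨c, rfl⟩)
    · rfl
    · exact (hsc _ _).symm
    · exact hsc _ _
    · exact hsc _ _
  have hSτ : ∀ x ∈ S, D.τ x ∈ S := by
    apply stable_closure D.anti
    rintro x (rfl | ⟨b, rfl⟩)
    · rw [hZfix]
      exact hZS
    · rw [hτs]
      exact hscS _
  have hθ : IsUnit (sc a - D.τ (sc a)) := by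
    rw [hτs, ← map_sub]
    have h1 : a - a ^ q ≠ 0 := sub_ne_zero.2 (Ne.symm ha)
    exact (IsUnit.mk0 _ h1).map sc
  obtain ⟨E, hE, hEu, hEE⟩ := norm_sub D.anti S hc hSτ (fun x _ => D.invol x) (hscS a) hθ hZS z.1.isUnit hZfix
  have hEJ : E * JJ K d = JJ K d * E := by
    refine comm_of_closure ?_ E hE
    rintro x (rfl | ⟨b, rfl⟩)
    · exact z.2
    · exact hsc _ _
  obtain ⟨E', rfl⟩ := hEu
  have hEmem : E' ∈ cGroup d K := hEJ
  let x : cGroup d K := ⟨E', hEmem⟩
  refine ⟨D.sig x, Subtype.ext (Units.ext ?_)⟩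
  show D.τ (D.τ (E' : Matrix (Ix d) (Ix d) K)) * D.τ (E' : Matrix (Ix d) (Ix d) K) = Z
  rw [D.invol]
  exact hEE

theorem card_sig_decomp :
    Nat.card (cGroup d K) = Nat.card {X : Matrix (Ix d) (Ix d) K // X * JJ K d = JJ K d * X ∧ D.τ X * X = 1} *
      Nat.card {z : cGroup d K // D.sig z = z} := by
  classical
  have h := card_of_norm D.sig
    (fun x y => Subtype.ext (Units.ext (by
      rw [sig_val]
      show D.τ (x.1.val * y.1.val) = D.τ y.1.val * D.τ x.1.val
      exact D.anti.mul _ _)))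
    (fun x => Subtype.ext (Units.ext (D.invol _))) D.norm_surj_C
  rw [h]
  congr 1
  apply Nat.card_congr
  exact
    { toFun := fun x => ⟨x.1.1.val, x.1.2, by
        have h1 := congrArg (fun w : cGroup d K => w.1.val) x.2
        exact h1⟩
      invFun := fun X =>
        ⟨⟨(IsUnit.of_mul_eq_one _ (mul_eq_one_comm.1 X.2.2)).unit, X.2.1⟩, Subtype.ext (Units.ext X.2.2)⟩
      left_inv := fun x => by
        apply Subtype.ext
        apply Subtype.ext
        apply Units.ext
        rfl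
      right_inv := fun X => by
        apply Subtype.ext
        rfl }

/-- The involution on the commutant. -/
noncomputable def τC (X : commSub K d) : commSub K d :=
  ⟨D.τ X.1, (comm_iff _).2 (D.τ_comm ((comm_iff _).1 X.2))⟩

theorem τC_add (x y : commSub K d) : D.τC (x + y) = D.τC x + D.τC y :=
  Subtype.ext (D.anti.add _ _)

theorem τC_smul (a : K) (x : commSub K d) : D.τC (a • x) = a ^ q • D.τC x :=
  Subtype.ext (D.smul _ _)

theorem τC_invol (x : commSub K d) : D.τC (D.τC x) = x :=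
  Subtype.ext (D.invol _)

theorem card_fixC :
    Nat.card (fixAdd D.τC D.τC_add) = q ^ (∑ k, ∑ l, min (d k) (d l)) := by
  have h := card_fixAdd_sq hK D.τC D.τC_add D.τC_smul D.τC_invol
  have h1 : Nat.card (commSub K d) = (q ^ 2) ^ (∑ k, ∑ l, min (d k) (d l)) := by
    rw [← hK]
    exact card_comm
  rw [h1, ← pow_mul, mul_comm, pow_mul] at h
  exact Nat.pow_left_injective (n := 2) (by norm_num) h

end TauData

/-- The involution on the block algebra. -/
noncomputable def τB (hK : Fintype.card K = q ^ 2) (G Gi : ∀ i : ℕ, Matrix (KK d i) (KK d i) K)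
    (Y : ∀ i : Fin (univ.sup d + 1), Matrix (KK d i) (KK d i) K) :
    ∀ i : Fin (univ.sup d + 1), Matrix (KK d i) (KK d i) K :=
  fun i => Gi i * dag hK (Y i) * G i

section τB

variable (G Gi : ∀ i : ℕ, Matrix (KK d i) (KK d i) K)

theorem τB_add (x y : ∀ i : Fin (univ.sup d + 1), Matrix (KK d i) (KK d i) K) :
    τB hK G Gi (x + y) = τB hK G Gi x + τB hK G Gi y := by
  funext i
  simp only [τB, Pi.add_apply, dag_add, mul_add, add_mul]

theorem τB_smul (a : K) (x : ∀ i : Fin (univ.sup d + 1), Matrix (KK d i) (KK d i) K) :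
    τB hK G Gi (a • x) = a ^ q • τB hK G Gi x := by
  funext i
  simp only [τB, Pi.smul_apply, dag_smul, Matrix.mul_smul, Matrix.smul_mul]

theorem τB_invol (hh : ∀ i, dag hK (G i) = G i) (h1 : ∀ i, G i * Gi i = 1) (h2 : ∀ i, Gi i * G i = 1)
    (x : ∀ i : Fin (univ.sup d + 1), Matrix (KK d i) (KK d i) K) :
    τB hK G Gi (τB hK G Gi x) = x := by
  funext i
  have h3 : dag hK (Gi i) * G i = 1 := by
    have := dag_mul hK (G i) (Gi i)
    rw [h1, dag_one, hh] at this
    exact this.symm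
  simp only [τB, dag_mul, dag_dag, hh]
  calc Gi i * (G i * (x i * dag hK (Gi i))) * G i = (Gi i * G i) * x i * (dag hK (Gi i) * G i) := by noncomm_ring
    _ = x i := by rw [h2, h3, one_mul, mul_one]

theorem card_fixB (hh : ∀ i, dag hK (G i) = G i) (h1 : ∀ i, G i * Gi i = 1) (h2 : ∀ i, Gi i * G i = 1) :
    Nat.card (fixAdd (τB hK G Gi) (τB_add G Gi)) =
      q ^ (∑ i ∈ range (univ.sup d + 1), (univ.filter (fun k : Fin t => d k = i)).card ^ 2) := by
  classical
  have h := card_fixAdd_sq hK (τB hK G Gi) (τB_add G Gi) (τB_smul G Gi) (τB_invol G Gi hh h1 h2)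
  have hB : Nat.card (∀ i : Fin (univ.sup d + 1), Matrix (KK d i) (KK d i) K) =
      (q ^ 2) ^ (∑ i ∈ range (univ.sup d + 1), (univ.filter (fun k : Fin t => d k = i)).card ^ 2) := by
    have hcardK : ∀ i : ℕ, Fintype.card (KK d i) = (univ.filter (fun k : Fin t => d k = i)).card :=
      fun i => Fintype.card_subtype _
    rw [Nat.card_pi, ← hK]
    simp only [card_matrix_nat (F := K) (hcardK _)]
    rw [Finset.prod_pow_eq_pow_sum, Fin.sum_univ_eq_sum_range (fun i => (univ.filter (fun k : Fin t => d k = i)).card ^ 2)]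
  rw [hB, ← pow_mul, mul_comm, pow_mul] at h
  exact Nat.pow_left_injective (n := 2) (by norm_num) h

end τB

namespace TauData

/-- The main count. -/
theorem main_count (hd : ∀ k, 1 ≤ d k) :
    Nat.card {X : Matrix (Ix d) (Ix d) K // X * JJ K d = JJ K d * X ∧ D.τ X * X = 1} =
      q ^ (2 * (∑ i ∈ range (univ.sup d + 1), ∑ j ∈ range (univ.sup d + 1),
        if i < j then i * (univ.filter (fun k : Fin t => d k = i)).card * (univ.filter (fun k : Fin t => d k = j)).card else 0)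
        + ∑ i ∈ range (univ.sup d + 1), (i - 1) * (univ.filter (fun k : Fin t => d k = i)).card ^ 2)
      * ∏ i ∈ range (univ.sup d + 1), Nat.card (Cfsg.GU (univ.filter (fun k : Fin t => d k = i)).card K q) := by
  classical
  set a : ℕ → ℕ := fun i => (univ.filter (fun k : Fin t => d k = i)).card with ha
  have hcardK : ∀ i : ℕ, Fintype.card (KK d i) = a i := fun i => Fintype.card_subtype _
  set γ := (2 * (∑ i ∈ range (univ.sup d + 1), ∑ j ∈ range (univ.sup d + 1),
        if i < j then i * a i * a j else 0)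
        + ∑ i ∈ range (univ.sup d + 1), (i - 1) * a i ^ 2) with hγ
  have hexp : ∑ k, ∑ l, min (d k) (d l) = γ + ∑ i ∈ range (univ.sup d + 1), a i ^ 2 := exp_identity hd
  choose G hGu hGh hGr using D.exists_G hd
  have hGinv : ∀ i, ∃ Gi, G i * Gi = 1 ∧ Gi * G i = 1 := by
    intro i
    obtain ⟨u, hu⟩ := hGu i
    exact ⟨((u⁻¹ : (Matrix (KK d i) (KK d i) K)ˣ) : Matrix (KK d i) (KK d i) K), by rw [← hu]; exact u.mul_inv,
      by rw [← hu]; exact u.inv_mul⟩
  choose Gi hGi1 hGi2 using hGinv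
  have hcompat : ∀ X : commSub K d, τB hK G Gi (blockMap hd X) = blockMap hd (D.τC X) := by
    intro X
    funext i
    show Gi i * dag hK (blockOf hd X.1 i) * G i = blockOf hd (D.τ X.1) i
    rw [mul_assoc, hGr _ X.1 X.2, ← mul_assoc, hGi2, one_mul]
  -- the block map on fixed points
  let f : fixAdd D.τC D.τC_add →+ fixAdd (τB hK G Gi) (τB_add G Gi) :=
    AddMonoidHom.mk' (fun X => ⟨blockMap hd X.1, by
      show τB hK G Gi (blockMap hd X.1) = blockMap hd X.1
      rw [hcompat]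
      have hX : D.τC X.1 = X.1 := X.2
      rw [hX]⟩) (fun a b => Subtype.ext (map_add _ _ _))
  have hf : Function.Surjective f := by
    rintro ⟨Y, hY⟩
    have hY' : τB hK G Gi Y = Y := hY
    obtain ⟨X₀, hX₀⟩ := blockMap_surjective (F := K) hd Y
    obtain ⟨e, δ, hδ0, hδ, hδq⟩ := exists_delta hK
    have hi := inv_delta_pow hδq
    have hfix : D.τC (δ⁻¹ • (e • X₀ - e ^ q • D.τC X₀)) = δ⁻¹ • (e • X₀ - e ^ q • D.τC X₀) := by
      have hsub : ∀ x y : commSub K d, D.τC (x - y) = D.τC x - D.τC y := by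
        intro x y
        have h := D.τC_add (x - y) y
        rw [sub_add_cancel] at h
        rw [h, add_sub_cancel_right]
      rw [D.τC_smul, hi, hsub, D.τC_smul, D.τC_smul, D.τC_invol, pow_q_pow_q hK]
      module
    refine ⟨⟨_, hfix⟩, Subtype.ext ?_⟩
    show blockMap hd (δ⁻¹ • (e • X₀ - e ^ q • D.τC X₀)) = Y
    rw [map_smul, map_sub, map_smul, map_smul, ← hcompat, hX₀, hY', ← sub_smul, ← hδ, smul_smul,
      inv_mul_cancel₀ hδ0, one_smul]
  let S : Set (fixAdd (τB hK G Gi) (τB_add G Gi)) := {Y | ∀ i, IsUnit (Y.1 i)}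
  have hfib := fiber_count_add f hf S
  have hS : Nat.card S = ∏ i ∈ range (univ.sup d + 1),
      Nat.card {Z : Matrix (Fin (a i)) (Fin (a i)) K // IsUnit Z ∧ cj hK Z = Z} := by
    let E : S ≃ ∀ i : Fin (univ.sup d + 1), {Y : Matrix (KK d i) (KK d i) K // IsUnit Y ∧ dag hK Y * G i = G i * Y} :=
      { toFun := fun Y i => ⟨Y.1.1 i, Y.2 i, by
          have h1 : τB hK G Gi Y.1.1 = Y.1.1 := Y.1.2
          have h2 := congrFun h1 i
          show dag hK (Y.1.1 i) * G i = G i * Y.1.1 i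
          calc dag hK (Y.1.1 i) * G i = (G i * Gi i) * (dag hK (Y.1.1 i) * G i) := by rw [hGi1, one_mul]
            _ = G i * (Gi i * dag hK (Y.1.1 i) * G i) := by noncomm_ring
            _ = G i * Y.1.1 i := by rw [show Gi i * dag hK (Y.1.1 i) * G i = τB hK G Gi Y.1.1 i from rfl, h2]⟩
        invFun := fun Y => ⟨⟨fun i => (Y i).1, by
            funext i
            show Gi i * dag hK (Y i).1 * G i = (Y i).1
            rw [mul_assoc, (Y i).2.2, ← mul_assoc, hGi2, one_mul]⟩, fun i => (Y i).2.1⟩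
        left_inv := fun Y => rfl
        right_inv := fun Y => rfl }
    rw [Nat.card_congr E, Nat.card_pi]
    have h1 : ∀ i : Fin (univ.sup d + 1), Nat.card {Y : Matrix (KK d i) (KK d i) K // IsUnit Y ∧ dag hK Y * G i = G i * Y} =
        Nat.card {Z : Matrix (Fin (a i)) (Fin (a i)) K // IsUnit Z ∧ cj hK Z = Z} := by
      intro i
      rw [card_herm_twist hK (hGu i) (hGh i), card_herm_reindex hK (hcardK i)]
    simp only [h1]
    rw [Fin.prod_univ_eq_prod_range (fun i => Nat.card {Z : Matrix (Fin (a i)) (Fin (a i)) K // IsUnit Z ∧ cj hK Z = Z})]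
  have hE : Nat.card {z : cGroup d K // D.sig z = z} = Nat.card {x // f x ∈ S} := by
    apply Nat.card_congr
    exact
      { toFun := fun z => ⟨⟨⟨z.1.1.val, (comm_iff _).2 z.1.2⟩, by
            have h1 := congrArg (fun w : cGroup d K => w.1.val) z.2
            exact Subtype.ext h1⟩, fun i =>
            blocks_of_isUnit hd ((comm_iff _).2 z.1.2) z.1.1.isUnit _⟩
        invFun := fun x => ⟨⟨(isUnit_of_blocks hd x.1.1.2 (fun k => x.2
              ⟨d k, Nat.lt_succ_of_le (Finset.le_sup (f := d) (Finset.mem_univ k))⟩)).unit, (comm_iff _).1 x.1.1.2⟩,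
            Subtype.ext (Units.ext (congrArg Subtype.val x.1.2))⟩
        left_inv := fun z => by
          apply Subtype.ext
          apply Subtype.ext
          apply Units.ext
          rfl
        right_inv := fun x => by
          apply Subtype.ext
          apply Subtype.ext
          apply Subtype.ext
          rfl }
  have hdecomp := D.card_sig_decomp
  have hcent : Nat.card (cGroup d K) = (q ^ 2) ^ γ * ∏ i ∈ range (univ.sup d + 1), ∏ j : Fin (a i),
      ((q ^ 2) ^ a i - (q ^ 2) ^ (j : ℕ)) := by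
    have h := card_centraliser (F := K) hd
    rw [hK] at h
    exact h
  have hGL : ∀ i, ∏ j : Fin (a i), ((q ^ 2) ^ a i - (q ^ 2) ^ (j : ℕ)) =
      Nat.card (Cfsg.GU (a i) K q) * Nat.card {Z : Matrix (Fin (a i)) (Fin (a i)) K // IsUnit Z ∧ cj hK Z = Z} := by
    intro i
    rw [← card_GL_eq hK (a i), Matrix.card_GL_field, hK]
  have hqpos : 0 < q := by
    have := two_le_q hK
    omega
  rw [D.card_fixC, card_fixB G Gi hGh hGi1 hGi2, hS, ← hE, hexp, pow_add] at hfib
  have hHc : Nat.card {z : cGroup d K // D.sig z = z} = q ^ γ * ∏ i ∈ range (univ.sup d + 1),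
      Nat.card {Z : Matrix (Fin (a i)) (Fin (a i)) K // IsUnit Z ∧ cj hK Z = Z} := by
    apply Nat.eq_of_mul_eq_mul_right (pow_pos hqpos _)
    rw [hfib]
    ring
  rw [hcent, hHc] at hdecomp
  simp only [hGL] at hdecomp
  rw [Finset.prod_mul_distrib] at hdecomp
  set HH := ∏ i ∈ range (univ.sup d + 1), Nat.card {Z : Matrix (Fin (a i)) (Fin (a i)) K // IsUnit Z ∧ cj hK Z = Z} with hHH
  have hHHpos : 0 < HH := by
    apply Finset.prod_pos
    intro i _
    have : Nonempty {Z : Matrix (Fin (a i)) (Fin (a i)) K // IsUnit Z ∧ cj hK Z = Z} :=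
      ⟨⟨1, isUnit_one, cj_one hK⟩⟩
    exact Nat.card_pos
  apply Nat.eq_of_mul_eq_mul_right (Nat.mul_pos (pow_pos hqpos γ) hHHpos)
  rw [← hdecomp, ← pow_mul, mul_comm 2 γ, pow_mul]
  ring

end TauData

end Cfsg.Agent.Lib.JordanForm
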