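import Mathlib
import Cfsg.Agent.Lib.JordanForm.Nec
import Cfsg.Agent.Lib.JordanForm.Global
import Cfsg.Agent.Lib.AutPSL.GInvOdd
import Cfsg.Agent.Lib.Classical.Symp
import Cfsg.Agent.Lib.KnownSimple.SympForm

/-! Jordan types in the classical groups: conjugation adapters and the symplectic realisation. -/

set_option autoImplicit false

namespace Cfsg.Agent.Lib.JordanForm

open Matrix Finset Module

variable {F : Type*} [Field F] {t : ℕ} {d : Fin t → ℕ}

theorem reindex_mulVec' {ι κ : Type*} [Fintype ι] [Fintype κ] [DecidableEq ι] [DecidableEq κ]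
    (f : ι ≃ κ) (M : Matrix ι ι F) (z : κ → F) :
    Matrix.reindex f f M *ᵥ z = (M *ᵥ (z ∘ f)) ∘ f.symm := by
  rw [Matrix.reindex_apply, Matrix.submatrix_mulVec_equiv]
  simp

/-- The conjugation gives an intertwiner. -/
theorem conj_transport {ι : Type*} [Fintype ι] [DecidableEq ι] (e : Ix d ≃ ι) {A : Matrix ι ι F}
    (h : IsConj (Matrix.reindex e e (JJ F d)) A) :
    ∃ T : (Ix d → F) ≃ₗ[F] (ι → F), ∀ x, T (JJ F d *ᵥ x) = A *ᵥ T x := by
  classical
  obtain ⟨c, hc⟩ := h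
  have hc' : (c : Matrix ι ι F) * Matrix.reindex e e (JJ F d) = A * c := hc
  let φ : (Ix d → F) ≃ₗ[F] (ι → F) := LinearEquiv.funCongrLeft F F e.symm
  have hφ : ∀ x, φ x = x ∘ e.symm := fun x => rfl
  let ψ : (ι → F) ≃ₗ[F] (ι → F) :=
    { toLinearMap := (c : Matrix ι ι F).mulVecLin
      invFun := fun z => ((c⁻¹ : (Matrix ι ι F)ˣ) : Matrix ι ι F) *ᵥ z
      left_inv := fun z => by
        simp only [LinearMap.toFun_eq_coe, Matrix.mulVecLin_apply, Matrix.mulVec_mulVec]
        rw [c.inv_mul, Matrix.one_mulVec]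
      right_inv := fun z => by
        simp only [LinearMap.toFun_eq_coe, Matrix.mulVecLin_apply, Matrix.mulVec_mulVec]
        rw [c.mul_inv, Matrix.one_mulVec] }
  have hψ : ∀ z, ψ z = (c : Matrix ι ι F) *ᵥ z := fun z => rfl
  refine ⟨φ.trans ψ, ?_⟩
  intro x
  simp only [LinearEquiv.trans_apply]
  rw [hψ, hψ, hφ, hφ, Matrix.mulVec_mulVec, ← hc', ← Matrix.mulVec_mulVec, reindex_mulVec']
  congr 1
  funext i
  simp only [Function.comp_apply]
  congr 1
  funext a
  simp

/-- An intertwiner gives a conjugation. -/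
theorem transport_conj {ι : Type*} [Fintype ι] [DecidableEq ι] (e : Ix d ≃ ι) {A : Matrix ι ι F}
    (T : (Ix d → F) ≃ₗ[F] (ι → F)) (h : ∀ x, T (JJ F d *ᵥ x) = A *ᵥ T x) :
    IsConj (Matrix.reindex e e (JJ F d)) A := by
  classical
  let φ : (ι → F) ≃ₗ[F] (Ix d → F) := LinearEquiv.funCongrLeft F F e
  have hφ : ∀ x, φ x = x ∘ e := fun x => rfl
  let P : (ι → F) ≃ₗ[F] (ι → F) := φ.trans T
  refine ⟨Cfsg.Agent.Lib.RegUnip.glOfEquiv P, ?_⟩
  show ((Cfsg.Agent.Lib.RegUnip.glOfEquiv P : Matrix.GeneralLinearGroup ι F) : Matrix ι ι F) * Matrix.reindex e e (JJ F d)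
    = A * ((Cfsg.Agent.Lib.RegUnip.glOfEquiv P : Matrix.GeneralLinearGroup ι F) : Matrix ι ι F)
  apply Matrix.toLin'.injective
  apply LinearMap.ext
  intro z
  simp only [Matrix.toLin'_apply]
  rw [← Matrix.mulVec_mulVec, ← Matrix.mulVec_mulVec, Cfsg.Agent.Lib.RegUnip.glOfEquiv_mulVec,
    Cfsg.Agent.Lib.RegUnip.glOfEquiv_mulVec]
  simp only [P, LinearEquiv.trans_apply]
  rw [← h, reindex_mulVec', hφ, hφ]
  congr 1
  funext a
  simp

/-- Alternating case of necessity under conjugation. -/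
theorem even_of_alt_conj {ι : Type*} [Fintype ι] [DecidableEq ι] (e : Ix d ≃ ι) {A : Matrix ι ι F}
    (h : IsConj (Matrix.reindex e e (JJ F d)) A) (ω : (ι → F) →ₗ[F] (ι → F) →ₗ[F] F)
    (hA : ∀ x y, ω (A *ᵥ x) (A *ᵥ y) = ω x y) (hsep : ∀ y, (∀ x, ω x y = 0) → y = 0)
    (halt : ∀ x, ω x x = 0) (j : ℕ) (hj : Odd j) :
    Even (univ.filter (fun k => d k = j)).card := by
  obtain ⟨T, hT⟩ := conj_transport e h
  let B : (Ix d → F) →ₗ[F] (Ix d → F) →ₗ[F] F := ω.compl₁₂ T.toLinearMap T.toLinearMap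
  have hB : ∀ x y, B x y = ω (T x) (T y) := fun x y => rfl
  have hsepB : ∀ y, (∀ x, B x y = 0) → y = 0 := by
    intro y hy
    have : T y = 0 := by
      apply hsep
      intro x
      have := hy (T.symm x)
      rwa [hB, LinearEquiv.apply_symm_apply] at this
    simpa using this
  exact even_of_alt B (fun x y => by rw [hB, hB, hT, hT, hA]) (rep_of_sep B hsepB) hsepB
    (fun x => by rw [hB, halt]) hj

/-- Symmetric case of necessity under conjugation. -/
theorem even_of_symm_conj (h2 : (2 : F) ≠ 0) {ι : Type*} [Fintype ι] [DecidableEq ι] (e : Ix d ≃ ι)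
    {A : Matrix ι ι F}
    (h : IsConj (Matrix.reindex e e (JJ F d)) A) (ω : (ι → F) →ₗ[F] (ι → F) →ₗ[F] F)
    (hA : ∀ x y, ω (A *ᵥ x) (A *ᵥ y) = ω x y) (hsep : ∀ y, (∀ x, ω x y = 0) → y = 0)
    (hsym : ∀ x y, ω x y = ω y x) (j : ℕ) (hj : Even j) (h0 : 0 < j) :
    Even (univ.filter (fun k => d k = j)).card := by
  obtain ⟨T, hT⟩ := conj_transport e h
  let B : (Ix d → F) →ₗ[F] (Ix d → F) →ₗ[F] F := ω.compl₁₂ T.toLinearMap T.toLinearMap
  have hB : ∀ x y, B x y = ω (T x) (T y) := fun x y => rfl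
  have hsepB : ∀ y, (∀ x, B x y = 0) → y = 0 := by
    intro y hy
    have : T y = 0 := by
      apply hsep
      intro x
      have := hy (T.symm x)
      rwa [hB, LinearEquiv.apply_symm_apply] at this
    simpa using this
  exact even_of_symm h2 B (fun x y => by rw [hB, hB, hT, hT, hA]) (rep_of_sep B hsepB) hsepB
    (fun x y => by rw [hB, hB, hsym]) hj h0

theorem card_Ix : Fintype.card (Ix d) = ∑ k, d k := by
  simp [Ix]

/-- Realisation in the symplectic group. -/
theorem sp_of_mult [Fintype F] {m : ℕ} (hd : ∀ k, 1 ≤ d k) (hsum : ∑ k, d k = 2 * m)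
    (hmult : ∀ j, Odd j → Even (univ.filter (fun k => d k = j)).card) :
    ∃ e : Ix d ≃ (Fin m ⊕ Fin m), ∃ A : Matrix.symplecticGroup (Fin m) F,
      IsConj (Matrix.reindex e e (JJ F d)) (A : Matrix (Fin m ⊕ Fin m) (Fin m ⊕ Fin m) F) := by
  classical
  obtain ⟨B, hinv, hsep, halt⟩ := exists_form_alt (F := F) (d := d) hd hmult
  have hskew : ∀ x y, B x y = - B y x := by
    intro x y
    have h1 := halt (x + y)
    simp only [map_add, LinearMap.add_apply, halt, zero_add, add_zero] at h1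
    exact eq_neg_of_add_eq_zero_right h1
  have hV : finrank F (Ix d → F) = 2 * m := by
    rw [Module.finrank_fintype_fun_eq_card, card_Ix, hsum]
  have hnd : LinearMap.BilinForm.Nondegenerate B := by
    refine ⟨?_, hsep⟩
    intro x hx
    apply hsep
    intro y
    rw [hskew, hx, neg_zero]
  obtain ⟨L, hL⟩ := Cfsg.Agent.Lib.AutPSL.alt_iso hV B halt hnd
  let A : Matrix (Fin m ⊕ Fin m) (Fin m ⊕ Fin m) F :=
    LinearMap.toMatrix' (L.symm.toLinearMap ∘ₗ (JJ F d).mulVecLin ∘ₗ L.toLinearMap)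
  have hAv : ∀ u, A *ᵥ u = L.symm (JJ F d *ᵥ L u) := by
    intro u
    simp only [A]
    rw [LinearMap.toMatrix'_mulVec]
    rfl
  have hAsp : A ∈ Matrix.symplecticGroup (Fin m) F := by
    apply Cfsg.Agent.Lib.Classical.mem_sp_of_preserves
    intro u v
    rw [← hL, ← hL, hAv, hAv, LinearEquiv.apply_symm_apply, LinearEquiv.apply_symm_apply, hinv]
  have hcard : Fintype.card (Ix d) = Fintype.card (Fin m ⊕ Fin m) := by
    rw [card_Ix, hsum]
    simp
    omega
  refine ⟨Fintype.equivOfCardEq hcard, ⟨A, hAsp⟩, ?_⟩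
  apply transport_conj _ L.symm
  intro x
  show L.symm (JJ F d *ᵥ x) = A *ᵥ L.symm x
  rw [hAv, LinearEquiv.apply_symm_apply]

/-- A unit for the reindexed matrix. -/
theorem exists_unit_reindex {ι : Type*} [Fintype ι] [DecidableEq ι] (e : Ix d ≃ ι) :
    ∃ g : Matrix.GeneralLinearGroup ι F, (g : Matrix ι ι F) = Matrix.reindex e e (JJ F d) := by
  classical
  obtain ⟨u, hu⟩ := JJ_isUnit F (d := d)
  refine ⟨Units.map ((Matrix.reindexAlgEquiv F F e : Matrix (Ix d) (Ix d) F ≃ₐ[F] Matrix ι ι F) : Matrix (Ix d) (Ix d) F →* Matrix ι ι F) u, ?_⟩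
  rw [Units.coe_map, hu]
  rfl

/-- The quadratic form of a symmetric bilinear form. -/
theorem exists_quad_of_symm (h2 : (2 : F) ≠ 0) {V : Type*} [AddCommGroup V] [Module F V]
    (B : V →ₗ[F] V →ₗ[F] F) (hsym : ∀ x y, B y x = B x y) :
    ∃ Q : QuadraticForm F V, (∀ x, Q x = 2⁻¹ * B x x) ∧ ∀ x y, QuadraticMap.polar Q x y = B x y := by
  refine ⟨(2⁻¹ : F) • LinearMap.BilinMap.toQuadraticMap B, ?_, ?_⟩
  · intro x
    simp
  · intro x y
    simp only [QuadraticMap.polar, _root_.smul_apply, LinearMap.BilinMap.toQuadraticMap_apply, map_add,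
      LinearMap.add_apply, smul_eq_mul]
    rw [hsym x y]
    field_simp
    ring

/-- Alternating polar forms in characteristic two. -/
theorem polar_self_char_two [CharP F 2] {V : Type*} [AddCommGroup V] [Module F V] (Q : QuadraticForm F V) (x : V) :
    QuadraticMap.polar Q x x = 0 := by
  rw [QuadraticMap.polar_self, two_smul, CharTwo.add_self_eq_zero]

end Cfsg.Agent.Lib.JordanForm
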