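import Mathlib
import Cfsg.Agent.Lib.JordanForm.GUCount
import Cfsg.Agent.Lib.JordanForm.Main

/-! The anti-involution attached to a unipotent element of the unitary group. -/

set_option autoImplicit false
set_option linter.unusedSectionVars false

namespace Cfsg.Agent.Lib.JordanForm

open Matrix Finset Module Cfsg.Agent.Lib.Classical Cfsg.Agent.Lib.NormH90
open scoped MatrixGroups

variable {K : Type*} [Field K] [Fintype K] {q n t : ℕ} (hK : Fintype.card K = q ^ 2) {d : Fin t → ℕ}
  (e : Ix d ≃ Fin n) (c : GL (Fin n) K)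

/-- Conjugation by a unit as an algebra automorphism. -/
noncomputable def conjAlg : Matrix (Fin n) (Fin n) K ≃ₐ[K] Matrix (Fin n) (Fin n) K :=
  AlgEquiv.ofLinearEquiv
    { toFun := fun Y => c.val * Y * (c⁻¹).val
      invFun := fun Y => (c⁻¹).val * Y * c.val
      map_add' := fun x y => by rw [mul_add, add_mul]
      map_smul' := fun a x => by simp
      left_inv := fun Y => by
        show (c⁻¹).val * (c.val * Y * (c⁻¹).val) * c.val = Y
        calc (c⁻¹).val * (c.val * Y * (c⁻¹).val) * c.val = ((c⁻¹).val * c.val) * Y * ((c⁻¹).val * c.val) := by noncomm_ring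
          _ = Y := by rw [Units.inv_mul, one_mul, mul_one]
      right_inv := fun Y => by
        show c.val * ((c⁻¹).val * Y * c.val) * (c⁻¹).val = Y
        calc c.val * ((c⁻¹).val * Y * c.val) * (c⁻¹).val = (c.val * (c⁻¹).val) * Y * (c.val * (c⁻¹).val) := by noncomm_ring
          _ = Y := by rw [Units.mul_inv, one_mul, mul_one] }
    (by show c.val * 1 * (c⁻¹).val = 1; rw [mul_one, Units.mul_inv])
    (fun x y => by
      show c.val * (x * y) * (c⁻¹).val = (c.val * x * (c⁻¹).val) * (c.val * y * (c⁻¹).val)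
      calc c.val * (x * y) * (c⁻¹).val = c.val * x * 1 * y * (c⁻¹).val := by noncomm_ring
        _ = c.val * x * ((c⁻¹).val * c.val) * y * (c⁻¹).val := by rw [Units.inv_mul]
        _ = _ := by noncomm_ring)

/-- The algebra isomorphism. -/
noncomputable def Th : Matrix (Ix d) (Ix d) K ≃ₐ[K] Matrix (Fin n) (Fin n) K :=
  (Matrix.reindexAlgEquiv K K e).trans (conjAlg c)

theorem Th_apply (X : Matrix (Ix d) (Ix d) K) : Th e c X = c.val * Matrix.reindex e e X * (c⁻¹).val := rfl

/-- The coordinate change. -/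
noncomputable def Tc (x : Ix d → K) : Fin n → K := c.val *ᵥ (x ∘ e.symm)

theorem Tc_add (x y : Ix d → K) : Tc e c (x + y) = Tc e c x + Tc e c y := by
  simp only [Tc]
  rw [← Matrix.mulVec_add]
  rfl

theorem Tc_smul (a : K) (x : Ix d → K) : Tc e c (a • x) = a • Tc e c x := by
  simp only [Tc]
  rw [← Matrix.mulVec_smul]
  rfl

theorem Tc_mulVec (X : Matrix (Ix d) (Ix d) K) (x : Ix d → K) : Tc e c (X *ᵥ x) = Th e c X *ᵥ Tc e c x := by
  simp only [Tc, Th_apply]
  rw [Matrix.mulVec_mulVec, mul_assoc, mul_assoc, Units.inv_mul, mul_one, ← Matrix.mulVec_mulVec, reindex_mulVec']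
  congr 2
  have h : (x ∘ e.symm) ∘ e = x := by
    funext b
    simp
  rw [h]

theorem Tc_surj (z : Fin n → K) : ∃ x, Tc e c x = z := by
  refine ⟨((c⁻¹).val *ᵥ z) ∘ e, ?_⟩
  simp only [Tc]
  have : (((c⁻¹).val *ᵥ z) ∘ e) ∘ e.symm = (c⁻¹).val *ᵥ z := by
    funext a
    simp
  rw [this, Matrix.mulVec_mulVec, Units.mul_inv, Matrix.one_mulVec]

theorem Tc_zero {x : Ix d → K} (h : Tc e c x = 0) : x = 0 := by
  simp only [Tc] at h
  have h1 := congrArg (fun z => (c⁻¹).val *ᵥ z) h
  simp only [Matrix.mulVec_mulVec, Units.inv_mul, Matrix.one_mulVec, Matrix.mulVec_zero] at h1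
  funext a
  have := congrFun h1 (e a)
  simpa using this

/-- Coordinatewise Frobenius. -/
noncomputable def Fr (y : Ix d → K) : Ix d → K := frobQ hK ∘ y

theorem Fr_mulVec (M : Matrix (Ix d) (Ix d) K) (y : Ix d → K) : Fr hK (M *ᵥ y) = M.map (frobQ hK) *ᵥ Fr hK y := by
  funext i
  exact RingHom.map_mulVec (frobQ hK) M y i

theorem Fr_Fr (y : Ix d → K) : Fr hK (Fr hK y) = y := by
  funext i
  exact frobQ_frobQ hK _

theorem Fr_ee (k : Fin t) (s : ℕ) : Fr hK (ee K d k s) = ee K d k s := by
  funext a
  simp only [Fr, Function.comp_apply, ee]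
  split_ifs <;> simp

theorem herm_mulVec_adj {n : ℕ} (A : Matrix (Fin n) (Fin n) K) (u v : Fin n → K) :
    Cfsg.hermForm n K q (A *ᵥ u) v = Cfsg.hermForm n K q u (cj hK A *ᵥ v) := by
  have e1 : ∀ w w' : Fin n → K, Cfsg.hermForm n K q w w' = w ⬝ᵥ (frobQ hK ∘ w') := by
    intro w w'
    simp only [Cfsg.hermForm, dotProduct, Function.comp, frobQ_apply]
  rw [e1, e1]
  have e2 : frobQ hK ∘ (cj hK A *ᵥ v) = (cj hK A).map (frobQ hK) *ᵥ (frobQ hK ∘ v) := by
    funext i
    exact RingHom.map_mulVec (frobQ hK) (cj hK A) v i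
  rw [e2]
  have e3 : (cj hK A).map (frobQ hK) = Aᵀ := by
    ext i j
    simp only [Matrix.map_apply, cj_apply, Matrix.transpose_apply]
    rw [frobQ_apply, pow_q_pow_q hK]
  rw [e3, dotProduct_comm, Matrix.dotProduct_mulVec, Matrix.mulVec_transpose, dotProduct_comm]

/-- The bilinear form. -/
noncomputable def Bf : (Ix d → K) →ₗ[K] (Ix d → K) →ₗ[K] K :=
  LinearMap.mk₂ K (fun x y => Cfsg.hermForm n K q (Tc e c x) (Tc e c (Fr hK y)))
    (fun x x' y => by
      rw [Tc_add, herm_add_left])
    (fun a x y => by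
      rw [Tc_smul, herm_smul_left]
      rfl)
    (fun x y y' => by
      have h : Fr hK (y + y') = Fr hK y + Fr hK y' := by
        funext i
        simp [Fr]
      rw [h, Tc_add, herm_add_right hK])
    (fun a x y => by
      have h : Fr hK (a • y) = a ^ q • Fr hK y := by
        funext i
        simp [Fr, frobQ_apply, mul_pow]
      rw [h, Tc_smul, herm_smul_right, pow_q_pow_q hK]
      rfl)

theorem Bf_apply (x y : Ix d → K) :
    Bf hK e c x y = Cfsg.hermForm n K q (Tc e c x) (Tc e c (Fr hK y)) := rfl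

/-- The anti-involution and the form attached to a unipotent element. -/
noncomputable def mkData (u : GL (Fin n) K) (hu : u ∈ Cfsg.GU n K q)
    (hc : c.val * Matrix.reindex e e (JJ K d) = u.val * c.val) : TauData hK d where
  τ := fun X => (Th e c).symm (cj hK (Th e c X))
  anti := by
    refine ⟨fun x y => ?_, ?_, fun x y => ?_⟩
    · simp only [map_add, cj_add]
    · simp only [map_one, cj_one]
    · simp only [map_mul, cj_mul]
  invol := fun X => by
    simp only [AlgEquiv.apply_symm_apply, cj_cj, AlgEquiv.symm_apply_apply]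
  smul := fun a X => by
    simp only [map_smul]
    have : cj hK (a • Th e c X) = a ^ q • cj hK (Th e c X) := dag_smul hK a _
    rw [this, map_smul]
  hJ := by
    have h1 : Th e c (JJ K d) = u.val := by
      rw [Th_apply, hc, mul_assoc, Units.mul_inv, mul_one]
    have h2 := (mem_GU_iff hK u).1 hu
    apply (Th e c).injective
    rw [map_mul, AlgEquiv.apply_symm_apply, h1, h2, map_one]
  B := Bf hK e c
  hadj := fun X x y => by
    rw [Bf_apply, Bf_apply, Tc_mulVec, herm_mulVec_adj hK, Fr_mulVec]
    congr 1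
    rw [map_map_frob, Tc_mulVec, AlgEquiv.apply_symm_apply]
  hsep := fun y hy => by
    have h1 : Tc e c (Fr hK y) = 0 := by
      apply Cfsg.Agent.Lib.Classical.herm_nondeg_right hK
      intro z
      obtain ⟨x, rfl⟩ := Tc_surj e c z
      rw [herm_conj hK]
      have := hy x
      rw [Bf_apply] at this
      rw [this, zero_pow (by have := two_le_q hK; omega)]
    have h2 := Tc_zero e c h1
    have h3 := congrArg (Fr hK) h2
    rw [Fr_Fr] at h3
    rw [h3]
    funext i
    simp [Fr]
  hherm := fun k r l s => by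
    rw [Bf_apply, Bf_apply, Fr_ee, Fr_ee]
    exact herm_conj hK _ _

/-- The centraliser in the unitary group. -/
theorem card_centralizer_eq (u : ↥(Cfsg.GU n K q))
    (hc : c.val * Matrix.reindex e e (JJ K d) = (u : GL (Fin n) K).val * c.val) :
    Nat.card ↥(Subgroup.centralizer ({u} : Set ↥(Cfsg.GU n K q))) =
      Nat.card {X : Matrix (Ix d) (Ix d) K // X * JJ K d = JJ K d * X ∧ (mkData hK e c u.1 u.2 hc).τ X * X = 1} := by
  classical
  have h1 : Th e c (JJ K d) = (u : GL (Fin n) K).val := by
    rw [Th_apply, hc, mul_assoc, Units.mul_inv, mul_one]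
  have hτ : ∀ X, (mkData hK e c u.1 u.2 hc).τ X = (Th e c).symm (cj hK (Th e c X)) := fun _ => rfl
  have h2 : ∀ X, (mkData hK e c u.1 u.2 hc).τ X * X = 1 ↔ cj hK (Th e c X) * Th e c X = 1 := by
    intro X
    rw [hτ]
    constructor
    · intro h
      have := congrArg (Th e c) h
      rwa [map_mul, AlgEquiv.apply_symm_apply, map_one] at this
    · intro h
      apply (Th e c).injective
      rw [map_mul, AlgEquiv.apply_symm_apply, map_one, h]
  have h3 : ∀ X, X * JJ K d = JJ K d * X ↔
      Th e c X * (u : GL (Fin n) K).val = (u : GL (Fin n) K).val * Th e c X := by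
    intro X
    rw [← h1, ← map_mul, ← map_mul, (Th e c).injective.eq_iff]
  apply Nat.card_congr
  exact
    { toFun := fun g => ⟨(Th e c).symm g.1.1.val, by
        rw [h3, AlgEquiv.apply_symm_apply]
        have h4 := (Subgroup.mem_centralizer_singleton_iff.1 g.2)
        have h5 := congrArg (fun w : ↥(Cfsg.GU n K q) => w.1.val) h4
        exact h5, by
        rw [h2, AlgEquiv.apply_symm_apply]
        exact (mem_GU_iff hK g.1.1).1 g.1.2⟩
      invFun := fun X =>
        have hX : cj hK (Th e c X.1) * Th e c X.1 = 1 := (h2 X.1).1 X.2.2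
        have hUn : IsUnit (Th e c X.1) := IsUnit.of_mul_eq_one _ (mul_eq_one_comm.1 hX)
        ⟨⟨hUn.unit, (mem_GU_iff hK _).2 hX⟩, by
          rw [Subgroup.mem_centralizer_singleton_iff]
          apply Subtype.ext
          apply Units.ext
          exact (h3 X.1).1 X.2.1⟩
      left_inv := fun g => by
        apply Subtype.ext
        apply Subtype.ext
        apply Units.ext
        simp
      right_inv := fun X => by
        apply Subtype.ext
        simp }

end Cfsg.Agent.Lib.JordanForm
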